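import Mathlib
import Cfsg.Agent.H01.XF9

/-!
# Groups of large Fischer type: the centralizer of the element of order 3 (namespace `H18.Fa`)

`y7`, `n3`, `m2`, `su`, `main` (assembly for `C_H(X) = 6.U₄(3)`).
-/

set_option autoImplicit false
set_option linter.unusedSectionVars false
open Cfsg BG Subgroup H01.XS H01.XF
open H01.XT hiding Hy QS
open scoped commutatorElement

namespace H18.Fa
universe u
variable {G : Type u} [Group G] [Finite G] {z : G} {Q : Subgroup G}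
  {V : Type u} [AddCommGroup V] [Module (ZMod 2) V] [Finite V] {Γ : Type u} [Group Γ] [Finite Γ]
  {T : Γ → V →+ V} {d : Γ} {M X0 : Subgroup Γ} {β : V →+ V →+ ZMod 2} {q : V → ZMod 2} {ν : G → V}
  {f : C_[z] →* Γ} {π : G → Γ} {a : V} {R : AddSubgroup V}

theorem y7 (h : Hy T d M X0 β q a R) : ∃ y ∈ M, y ^ 7 = 1 ∧ y ^ 9 ≠ 1 := by
  obtain ⟨y, i, o, k⟩ := h.fp
  refine ⟨y, i, o, fun e => h.a0 ((k a).2 ?_)⟩
  have : y = 1 := by
    have := pow_gcd_eq_one.2 ⟨o, e⟩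
    simpa using this
  rw [this, h.one]

theorem od (h : Hy T d M X0 β q a R) : orderOf d = 3 :=
  haveI : Fact (Nat.Prime 3) := ⟨by norm_num⟩
  orderOf_eq_prime (by rw [pow_three, h.d3]) h.d1

theorem n3 (h : Hy T d M X0 β q a R) (Y : Subgroup Γ) (n : Y.Normal) (c : Nat.card Y = 3) : Y = zpowers d := by
  have c3 : ∀ y ∈ Y, y ^ 3 = 1 := fun y i => by
    have := pow_card_eq_one' (x := (⟨y, i⟩ : Y))
    rw [c] at this
    exact congrArg Subtype.val this
  have l : Y ≤ M := fun y i => by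
    have a1 := mul_self_mem_of_index_two h.Mi y
    have : y = y * y * (y * y) := by
      rw [show y * y * (y * y) = y * y ^ 3 by simp [pow_succ, mul_assoc], c3 y i, mul_one]
    rw [this]; exact mul_mem a1 a1
  rcases h.sm Y l (fun g _ k j => n.conj_mem k j g) with k | k
  · exact Subgroup.eq_of_le_of_card_ge k (by rw [c, Nat.card_zpowers, od h])
  · obtain ⟨y, i, -, o⟩ := y7 h
    exact absurd (by rw [show 9 = 3 * 3 from rfl, pow_mul]; exact c3 _ (k y i)) o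

theorem m2 (h : Hy T d M X0 β q a R) (M1 : Subgroup Γ) (i : M1.index = 2) : M1 = M := by
  have n := normal_of_index_eq_two i
  have l : M ≤ M1 := by
    rcases h.sm (M ⊓ M1) inf_le_left (fun g j k o =>
      mem_inf.2 ⟨mul_mem (mul_mem j (mem_inf.1 o).1) (inv_mem j), n.conj_mem k o.2 g⟩) with k | k
    · obtain ⟨y, j, o, o'⟩ := y7 h
      have a1 : y ∈ M1 := by
        have := mul_self_mem_of_index_two i (y ^ 4)
        rwa [← pow_add, show 4 + 4 = 7 + 1 from rfl, pow_succ, o, one_mul] at this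
      have a2 := orderOf_dvd_of_mem_zpowers (k ⟨j, a1⟩)
      rw [od h] at a2
      exact absurd (orderOf_dvd_iff_pow_eq_one.1 (a2.trans (by norm_num))) o'
    · intro g j
      have := mul_mem (mem_inf.1 (k g j)).2 (inv_mem (mul_self_mem_of_index_two i g))
      rwa [show g ^ 3 * (g * g)⁻¹ = g by simp [pow_succ, mul_assoc]] at this
  have a1 := M.card_mul_index
  have a2 := M1.card_mul_index
  rw [h.Mi] at a1
  rw [i] at a2
  exact (Subgroup.eq_of_le_of_card_ge l (by omega)).symm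

theorem cq (s : Br z Q f π ν T d M β q) (h : Hy T d M X0 β q a R) {δ x : G} (i : δ ∈ C_[z]) (e : π δ = d)
    (j : x ∈ Q) (k : x ∈ C_[δ]) : x = 1 ∨ x = z := by
  refine (s.md.ker x j).1 ?_
  have a1 := s.act δ i x j
  rw [← mem_cent1.1 k, mul_inv_cancel_right, e] at a1
  have := h.hf (ν x)
  rw [a1, a1] at this
  exact lc this

theorem su (s : Br z Q f π ν T d M β q) (h : Hy T d M X0 β q a R) {δ : G} (i : δ ∈ C_[z]) (e : π δ = d)
    (o : δ ^ 3 = 1) : ∀ m ∈ M, ∃ x ∈ C_[z] ⊓ C_[δ], π x = m := fun m j => by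
  have l := s.md.lx
  obtain ⟨g, k, rfl⟩ := s.sur m
  have c1 : g * δ * g⁻¹ * δ⁻¹ ∈ Q := (s.ker _ (mul_mem (mul_mem (mul_mem k i) (inv_mem k)) (inv_mem i))).1 (by
    rw [s.mul _ (mul_mem (mul_mem k i) (inv_mem k)) _ (inv_mem i), s.mul _ (mul_mem k i) _ (inv_mem k), s.mul _ k _ i,
      s.inv _ k, s.inv _ i, e, h.Md _ j]; group)
  obtain ⟨r, rQ, er⟩ := s.md.sur (T d (ν (g * δ * g⁻¹ * δ⁻¹)))
  have c2 : δ * r⁻¹ * δ⁻¹ ∈ Q := l.cE i (inv_mem rQ)
  have c3 : ν (r * (δ * r⁻¹ * δ⁻¹)) = ν (g * δ * g⁻¹ * δ⁻¹) := by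
    rw [s.md.mul _ rQ _ c2, ← s.act δ i _ (inv_mem rQ), s.md.inv rQ, er, e, h.ω2]; exact lc0
  have c4 : r * δ * r⁻¹ = g * δ * g⁻¹ := by
    rcases s.md.eq (mul_mem rQ c2) c1 c3 with c | c
    · exact mul_right_cancel (b := δ⁻¹) (by rw [← c]; group)
    · exfalso
      have c5 : r * δ * r⁻¹ = z * (g * δ * g⁻¹) := mul_right_cancel (b := δ⁻¹) (by rw [mul_assoc z, ← c]; group)
      have c6 : Commute z (g * δ * g⁻¹) := (mem_cent1.1 (mul_mem (mul_mem k i) (inv_mem k))).symm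
      have c7 := congrArg (· ^ 3) c5
      simp only [conj_pow, c6.mul_pow, o, mul_one, mul_inv_cancel] at c7
      rw [pow_three, l.zz, mul_one] at c7
      exact l.z1 c7.symm
  refine ⟨r⁻¹ * g, mem_inf.2 ⟨mul_mem (inv_mem (l.le rQ)) k, mem_cent1.2 ?_⟩, by
    rw [s.mul _ (inv_mem (l.le rQ)) _ k, (s.ker _ (inv_mem (l.le rQ))).2 (inv_mem rQ), one_mul]⟩
  rw [show r⁻¹ * g * δ = r⁻¹ * (g * δ * g⁻¹) * g by group, ← c4]; group

theorem main (s : Br z Q f π ν T d M β q) (h : Hy T d M X0 β q a R) (I : d ∈ ⁅M, M⁆)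
    (Z : ∀ δ ∈ C_[z], π δ = d → δ ^ 3 = 1 → (∀ m ∈ M, ∃ x ∈ C_[z] ⊓ C_[δ], π x = m) →
      z ∈ ⁅C_[z] ⊓ C_[δ], C_[z] ⊓ C_[δ]⁆)
    {P : Type*} [Group P] [IsSimpleGroup P] (nab : center P ≠ ⊤) {N0 M0 : Subgroup C_[z]} (n : N0.Normal)
    (l1 : f.ker ≤ N0) (l2 : N0 ≤ M0) (c : Nat.card N0 = 3 * Nat.card f.ker) (ρ : M0 →* P) (ρs : Function.Surjective ρ)
    (ρk : ρ.ker = N0.subgroupOf M0) (i : M0.index = 2) (X : Subgroup C_[z]) (hX : Nat.card X = 3)
    (hn : (X ⊔ f.ker).Normal) :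
    IsQuasisimple ↥(centralizer (X : Set C_[z])) ∧ IsCyclic ↥(center ↥(centralizer (X : Set C_[z]))) ∧
      Nat.card ↥(center ↥(centralizer (X : Set C_[z]))) = 6 ∧
      Nonempty (↥(centralizer (X : Set C_[z])) ⧸ center ↥(centralizer (X : Set C_[z])) ≃* P) := by
  have : Fact (Nat.Prime 3) := ⟨by norm_num⟩
  have l := s.md.lx
  have fs : Function.Surjective f := fun k => by
    obtain ⟨x, j, e⟩ := s.sur k
    exact ⟨⟨x, j⟩, (s.pf _).trans e⟩
  have mk : ∀ x : C_[z], f x = 1 ↔ x.1 ∈ Q := fun x => by rw [s.pf, s.ker _ x.2]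
  have ck : Nat.card f.ker = 8192 := by
    rw [show f.ker = Q.subgroupOf C_[z] from Subgroup.ext mk, Nat.card_congr (subgroupOfEquivOfLe l.le).toEquiv, s.card]
  have eN : N0.map f = zpowers d := n3 h _ (n.map f fs) (by
    have := card_inf_mul_relIndex f.ker N0
    rw [relIndex_ker, inf_eq_left.2 l1, c, ck] at this
    omega)
  have eM : M0.map f = M := m2 h _ (by
    rw [index_map, MonoidHom.range_eq_top.2 fs, index_top, mul_one, sup_eq_left.2 (l1.trans l2), i])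
  have eX : X.map f = zpowers d := n3 h _ (by
    have := hn.map f fs
    rwa [Subgroup.map_sup, (Subgroup.map_eq_bot_iff _).2 le_rfl, sup_bot_eq] at this) (by
    have a1 := card_inf_mul_relIndex f.ker X
    have a2 := card_dvd_of_le (inf_le_left : f.ker ⊓ X ≤ f.ker)
    have a3 := card_dvd_of_le (inf_le_right : f.ker ⊓ X ≤ X)
    rw [ck] at a2
    rw [hX] at a3 a1
    rw [relIndex_ker, Nat.eq_one_of_dvd_coprimes (by norm_num) a2 a3] at a1
    omega)
  obtain ⟨δ, δX, δd⟩ := eX.ge (mem_zpowers d)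
  have δ3 : δ ^ 3 = 1 := by
    have := pow_card_eq_one' (x := (⟨δ, δX⟩ : X))
    rw [hX] at this
    exact congrArg Subtype.val this
  have δ1 : δ ≠ 1 := fun e => h.d1 (by rw [← δd, e, map_one])
  have oδ : orderOf δ = 3 := orderOf_eq_prime δ3 δ1
  have Xδ : zpowers δ = X := Subgroup.eq_of_le_of_card_ge (zpowers_le.2 δX) (by rw [hX, Nat.card_zpowers, oδ])
  have πδ : π δ = d := (s.pf δ).symm.trans δd
  have δ3' : δ.1 ^ 3 = 1 := congrArg Subtype.val δ3
  have mC : ∀ x : C_[z], x ∈ centralizer (X : Set C_[z]) ↔ x.1 ∈ C_[δ.1] := fun x =>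
    ⟨fun j => mem_cent1.2 (congrArg Subtype.val (j δ δX)).symm, fun j y k => by
      obtain ⟨m, rfl⟩ := Xδ.ge k
      exact ((show Commute δ x from Subtype.ext (mem_cent1.1 j).symm).zpow_left m).eq⟩
  generalize centralizer (X : Set C_[z]) = C at mC ⊢
  have su' := su s h δ.2 πδ δ3'
  have CM : C ≤ M0 := fun x j => by
    have a1 : f x ∈ M := by
      by_contra m
      have a2 := h.iv m a
      rw [← h.mul, ← δd, ← map_mul, show x * δ = δ * x from Subtype.ext (mem_cent1.1 ((mC x).1 j)), map_mul, h.mul] at a2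
      exact h.nz _ h.a0 (lc a2)
    obtain ⟨y, k, e⟩ := eM.ge a1
    have := mul_mem k (l2 (l1 (show y⁻¹ * x ∈ f.ker by rw [MonoidHom.mem_ker, map_mul, map_inv, e, inv_mul_cancel])))
    simpa using this
  let φ : C →* P := ρ.comp (inclusion CM)
  have φs : Function.Surjective φ := fun p => by
    obtain ⟨⟨y, k⟩, rfl⟩ := ρs p
    obtain ⟨x, j, e⟩ := su' (f y) (eM.le ⟨y, k, rfl⟩)
    have xC : (⟨x, j.1⟩ : C_[z]) ∈ C := (mC _).2 j.2
    refine ⟨⟨_, xC⟩, ?_⟩
    have : (inclusion CM ⟨_, xC⟩)⁻¹ * ⟨y, k⟩ ∈ ρ.ker := ρk.ge (l1 (show (⟨x, j.1⟩ : C_[z])⁻¹ * y ∈ f.ker by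
      rw [MonoidHom.mem_ker, map_mul, map_inv, s.pf, e, inv_mul_cancel]))
    rw [MonoidHom.mem_ker, map_mul, map_inv, inv_mul_eq_one] at this
    exact this
  let z0 : C := ⟨⟨z, mem_cent1_self z⟩, (mC _).2 (mem_cent1_comm.1 δ.2)⟩
  let δ0 : C := ⟨δ, (mC _).2 (mem_cent1_self _)⟩
  have zc : z0 ∈ center C := mem_center_iff.2 fun g => Subtype.ext (Subtype.ext (mem_cent1.1 g.1.2))
  have δc : δ0 ∈ center C := mem_center_iff.2 fun g => Subtype.ext (Subtype.ext (mem_cent1.1 ((mC _).1 g.2)))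
  have oz : orderOf z0 = 2 := by rw [← Subgroup.orderOf_coe, ← Subgroup.orderOf_coe]; exact l.aes.ord
  have oδ0 : orderOf δ0 = 3 := by rw [← Subgroup.orderOf_coe]; exact oδ
  have cm : Commute z0 δ0 := mem_center_iff.1 δc z0
  have o6 : orderOf (z0 * δ0) = 6 := by
    rw [cm.orderOf_mul_eq_mul_orderOf_of_coprime (by rw [oz, oδ0]; norm_num), oz, oδ0]
  have cQ : ∀ x : C, f x = 1 → x = 1 ∨ x = z0 := fun x e =>
    (cq s h δ.2 πδ ((mk _).1 e) ((mC _).1 x.2)).imp (fun e => Subtype.ext (Subtype.ext e))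
      fun e => Subtype.ext (Subtype.ext e)
  have gen : ∀ K : Subgroup C, z0 ∈ K → δ0 ∈ K → φ.ker ≤ K := fun K a1 a2 x j => by
    obtain ⟨m, e⟩ := eN.le ⟨x.1, ρk.le (x := inclusion CM x) j, rfl⟩
    have : x = x * (δ0 ^ m)⁻¹ * δ0 ^ m := by simp
    rw [this]
    refine mul_mem ?_ (zpow_mem a2 m)
    rcases cQ (x * (δ0 ^ m)⁻¹) (by
      simp only [Subgroup.coe_mul, InvMemClass.coe_inv, SubgroupClass.coe_zpow, map_mul, map_inv, map_zpow]
      rw [← e]; simp only [δ0]; rw [δd]; simp) with e | e <;> rw [e]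
    exacts [one_mem _, a1]
  have z6 : z0 ∈ zpowers (z0 * δ0) := ⟨3, by
    show (z0 * δ0) ^ (3 : ℤ) = z0
    rw [zpow_ofNat, cm.mul_pow, ← oδ0, pow_orderOf_eq_one, mul_one, oδ0, pow_succ, ← oz, pow_orderOf_eq_one, one_mul]⟩
  have δ6 : δ0 ∈ zpowers (z0 * δ0) := by
    have := mul_mem (inv_mem z6) (mem_zpowers (z0 * δ0))
    simpa using this
  have kz : center C ≤ φ.ker := fun x j => by
    have : φ x ∈ center P := mem_center_iff.2 fun p => by
      obtain ⟨y, rfl⟩ := φs p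
      rw [← map_mul, mem_center_iff.1 j y, map_mul]
    rwa [(IsSimpleGroup.eq_bot_or_eq_top_of_normal (center P) inferInstance).resolve_right nab] at this
  have e1 : φ.ker = center C := le_antisymm (gen _ zc δc) kz
  have e2 : center C = zpowers (z0 * δ0) := le_antisymm (kz.trans (gen _ z6 δ6)) (zpowers_le.2 (mul_mem zc δc))
  let E : C ⧸ center C ≃* P := (QuotientGroup.quotientMulEquivOfEq e1.symm).trans
    (QuotientGroup.quotientKerEquivOfSurjective φ φs)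
  have eC : (⊤ : Subgroup C).map (C_[z].subtype.comp C.subtype) = C_[z] ⊓ C_[δ.1] := Subgroup.ext fun x =>
    ⟨by rintro ⟨y, -, rfl⟩; exact ⟨y.1.2, (mC _).1 y.2⟩, fun j => ⟨⟨⟨x, j.1⟩, (mC _).2 j.2⟩, trivial, rfl⟩⟩
  have eF : (⊤ : Subgroup C).map (f.comp C.subtype) = M := le_antisymm (by
    rintro _ ⟨y, -, rfl⟩; exact eM.le ⟨y, CM y.2, rfl⟩) fun m j => by
      obtain ⟨x, k, e⟩ := su' m j
      exact ⟨⟨⟨x, k.1⟩, (mC _).2 k.2⟩, trivial, (s.pf _).trans e⟩
  have zD : z0 ∈ commutator C := by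
    have := Z δ δ.2 πδ δ3' su'
    rw [← eC, ← Subgroup.map_commutator] at this
    obtain ⟨y, j, e⟩ := this
    rwa [show z0 = y from Subtype.ext (Subtype.ext e.symm)]
  have δD : δ0 ∈ commutator C := by
    rw [← eF, ← Subgroup.map_commutator] at I
    obtain ⟨y, j, e⟩ := I
    have e : f y = d := e
    have : δ0 = (δ0 * y⁻¹) * y := by simp
    rw [this]
    refine mul_mem ?_ j
    rcases cQ (δ0 * y⁻¹) (by
      simp only [Subgroup.coe_mul, InvMemClass.coe_inv, map_mul, map_inv]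
      rw [e]; simp only [δ0]; rw [δd]; simp) with e | e <;> rw [e]
    exacts [one_mem _, zD]
  have pP : commutator P = ⊤ := (IsSimpleGroup.eq_bot_or_eq_top_of_normal (commutator P) inferInstance).resolve_left
    fun e => nab (eq_top_iff.2 fun x _ => mem_center_iff.2 fun y => by
      have : ⁅y, x⁆ ∈ commutator P := commutator_mem_commutator trivial trivial
      rw [e] at this
      exact (commutatorElement_eq_one_iff_commute.1 this).eq)
  refine ⟨⟨⟨eq_top_iff.2 fun x _ => ?_⟩, E.isSimpleGroup⟩, by rw [e2]; infer_instance,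
    by rw [e2, Nat.card_zpowers, o6], ⟨E⟩⟩
  have : φ x ∈ (commutator C).map φ := by
    rw [commutator_def, Subgroup.map_commutator, ← MonoidHom.range_eq_map, MonoidHom.range_eq_top.2 φs,
      ← commutator_def, pP]; trivial
  obtain ⟨y, j, e⟩ := this
  have := mul_mem j (gen _ zD δD (show y⁻¹ * x ∈ φ.ker by rw [MonoidHom.mem_ker, map_mul, map_inv, e, inv_mul_cancel]))
  simpa using this

end H18.Fa
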