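import Mathlib
import Cfsg.Agent.H06.J0

/-!
# Groups of Janko-four type: fixed spaces of the involutions of the hexad subgroup (namespace `H18.JU`)
-/

set_option autoImplicit false
set_option linter.unusedSectionVars false
open Cfsg BG Subgroup H01.XT Cfsg.Agent.H06.J

namespace H18.JU
universe u
variable {V : Type u} [AddCommGroup V] [Module (ZMod 2) V] [Finite V] {Γ : Type u} [Group Γ] [Finite Γ]
  {T : Γ → V →+ V} {d y y' : Γ} {M K Y : Subgroup Γ} {β : V →+ V →+ ZMod 2} {q : V → ZMod 2} {B W : AddSubgroup V} {v : V}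

theorem cnt (φ : V →+ V) : Nat.card φ.ker * Nat.card φ.range = Nat.card V := by
  rw [← AddSubgroup.index_ker, AddSubgroup.card_mul_index]

abbrev C (T : Γ → V →+ V) (y : Γ) : AddSubgroup V := (AddMonoidHom.id V + T y).ker

theorem mC : v ∈ C T y ↔ T y v = v := ⟨fun i => lc (show v + T y v = 0 from i), fun i => show v + T y v = 0 by rw [i]; exact lc0⟩

variable (h : Gj T d M β q)
include h

theorem li (x : Γ) (v : V) : T x⁻¹ (T x v) = v := by rw [← h.mul, inv_mul_cancel, h.one]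
theorem cω {x : Γ} (hx : x ∈ M) (v : V) : T x (T d v) = T d (T x v) := by rw [← h.mul, ← h.mul, h.Md x hx]

theorem four (k : ∀ v ∈ W, T d v ∈ W) : Nat.card W = 1 ∨ Nat.card W = 4 ∨ Nat.card W = 16 ∨ Nat.card W = 64 ∨
    Nat.card W = 256 ∨ Nat.card W = 1024 ∨ Nat.card W = 4096 := by
  have : Fact (Nat.Prime 3) := ⟨by norm_num⟩
  have d3 : d ^ 3 = 1 := by rw [pow_three, h.d3]
  have p : IsPGroup 3 (zpowers d) := fun ⟨_, n, rfl⟩ => ⟨1, Subtype.ext (by
    show (d ^ n) ^ 3 ^ 1 = 1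
    rw [pow_one, ← zpow_natCast, ← zpow_mul, mul_comm, zpow_mul, zpow_natCast, d3, one_zpow])⟩
  have i : ∀ g ∈ zpowers d, ∀ v ∈ W, T g v ∈ W := fun g j => by
    obtain ⟨n, rfl⟩ := mem_powers_iff_mem_zpowers.2 j
    induction n with
    | zero => intro v o; simpa only [pow_zero, h.one] using o
    | succ n ih => intro v o; simp only [pow_succ, h.mul]; exact ih (npow_mem_zpowers d n) _ (k v o)
  let _ : MulAction (zpowers d) W :=
    { smul := fun g v => ⟨T g v, i g g.2 v v.2⟩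
      one_smul := fun v => Subtype.ext (h.one v)
      mul_smul := fun x y v => Subtype.ext (h.mul x y v) }
  have a1 := p.card_modEq_card_fixedPoints W
  rw [show MulAction.fixedPoints (zpowers d) W = {0} from Set.ext fun v => ⟨fun j => Subtype.ext (by
    have e : T d v = v := congrArg Subtype.val (j ⟨d, mem_zpowers d⟩)
    have := h.hf v
    rw [e, e] at this; exact (show v.1 = 0 from lc this)), by rintro rfl g; exact Subtype.ext (map_zero _)⟩] at a1
  have a1 : Nat.card W % 3 = 1 := by simpa [Nat.ModEq] using a1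
  obtain ⟨n, l, e⟩ := (Nat.dvd_prime_pow Nat.prime_two (m := 12)).1 (h.card ▸ AddSubgroup.card_addSubgroup_dvd_card W)
  rw [e] at a1 ⊢
  interval_cases n <;> simp_all

theorem cle {k : Γ} (e : k * y * k⁻¹ = y') : Nat.card (C T y) ≤ Nat.card (C T y') :=
  Nat.card_le_card_of_injective (fun v => ⟨T k v, mC.2 (by rw [← e, h.mul, h.mul, li h, mC.1 v.2])⟩) fun v w e => Subtype.ext (by
    have e : T k v = T k w := congrArg Subtype.val e
    rw [← li h k v, e, li h])

variable (x : Hx d K Y) (l : K ≤ M) (p : Pj T d K Y q B)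
include x l p

theorem cm (i : y ∈ Y) (j : y' ∈ Y) : y * y' = y' * y := by
  rw [← inv_eq_of_mul_eq_one_right (x.Y2 _ (mul_mem i j)), mul_inv_rev, inv_eq_of_mul_eq_one_right (x.Y2 _ i),
    inv_eq_of_mul_eq_one_right (x.Y2 _ j)]

theorem BC (i : y ∈ Y) : B ≤ C T y := fun v j => mC.2 ((p.mB v).1 j y i)
theorem ωC (i : y ∈ Y) : ∀ v ∈ C T y, T d v ∈ C T y := fun v j => mC.2 (by rw [cω h (l (x.YK i)), mC.1 j])

theorem nt (n : y ≠ 1) : C T y ≠ ⊤ := fun e => n (h.fai y fun v => mC.1 (e.ge trivial))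

theorem ne (i : y ∈ Y) (j : y' ∈ Y) (n : y ≠ 1) (n' : y' ≠ 1) (m : y ≠ y') (e : C T y = C T y') : Nat.card (C T y) = 64 := by
  let J : Subgroup Γ :=
    { carrier := {k | k ∈ K ∧ ∀ v, v ∈ C T y ↔ T k v ∈ C T y}
      one_mem' := ⟨one_mem _, fun v => by rw [h.one]⟩
      mul_mem' := fun {a b} i j => ⟨mul_mem i.1 j.1, fun v => by rw [h.mul, ← i.2, ← j.2]⟩
      inv_mem' := fun {a} i => ⟨inv_mem i.1, fun v => by rw [i.2 (T a⁻¹ v), ← h.mul, mul_inv_cancel, h.one]⟩ }
  have mJ : ∀ k ∈ K, C T (k * y * k⁻¹) = C T y → k ∈ J := fun k a b => ⟨a, fun v => by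
    have : T k v ∈ C T (k * y * k⁻¹) ↔ v ∈ C T y := by
      rw [mC, mC, h.mul, h.mul, li h]
      exact ⟨fun o => by rw [← li h k (T y v), o, li h], fun o => by rw [o]⟩
    rw [← this, b]⟩
  have c1 : ∀ k ∈ K, k * y = y * k → k ∈ J := fun k a b => mJ k a (by rw [b, mul_inv_cancel_right])
  have a1 : (C_[y]).relIndex K = 15 := by
    let _ : MulAction K Γ :=
      { smul := fun k g => k * g * (k : Γ)⁻¹
        one_smul := fun g => show (1 : Γ) * g * (1 : Γ)⁻¹ = g by simp
        mul_smul := fun a b g => show (a * b : Γ) * g * (a * b : Γ)⁻¹ = (a : Γ) * ((b : Γ) * g * (b : Γ)⁻¹) * (a : Γ)⁻¹ by group }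
    rw [relIndex, show (C_[y]).subgroupOf K = MulAction.stabilizer K y from Subgroup.ext fun k =>
      mem_cent1.trans mul_inv_eq_iff_eq_mul.symm, MulAction.index_stabilizer,
      show MulAction.orbit K y = (Y : Set Γ) \ {1} from Set.ext fun g => ⟨by
        rintro ⟨k, rfl⟩
        exact ⟨x.nY k k.2 y i, fun o => n (by simpa using (show (k : Γ) * y * (k : Γ)⁻¹ = 1 from o))⟩, fun o => by
        obtain ⟨k, a, b⟩ := x.tr y i g o.1 n o.2
        exact ⟨⟨k, a⟩, b⟩⟩, Set.ncard_sdiff_singleton_of_mem (one_mem Y), ← Nat.card_coe_set_eq]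
    simp only [SetLike.coe_sort_coe, x.cY]
  have JK : J ≤ K := fun k a => a.1
  have a2 := relIndex_mul_relIndex (C_[y] ⊓ K) J K (fun k a => c1 k a.2 (mem_cent1.1 a.1)) JK
  rw [inf_relIndex_right, a1] at a2
  have a3 : (C_[y] ⊓ K).relIndex J ≠ 1 := fun o => by
    obtain ⟨k, a, b⟩ := x.tr y i y' j n n'
    have := mem_cent1.1 (relIndex_eq_one.1 o (mJ k a (by rw [b, e]))).1
    exact m (by rw [← b, this, mul_inv_cancel_right])
  have a4 : J.relIndex K ≤ 5 := by
    have := Nat.le_of_dvd (by norm_num) (Dvd.intro_left _ a2)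
    generalize J.relIndex K = t at *
    interval_cases t <;> omega
  have KJ := x.s1 J JK (fun g a => c1 g (x.YK a) (cm h x l p a i)) (c1 d x.dK (h.Md y (l (x.YK i))).symm) a4
  rcases p.w64 (C T y) fun k a v o => ((KJ a).2 v).1 o with o | o | o
  · have := AddSubgroup.card_le_of_le (BC h x l p i)
    rw [o, p.cB] at this; simp at this
  · exact absurd o (nt h x l p n)
  · exact o

theorem c256 (i : y ∈ Y) (n : y ≠ 1) : Nat.card (C T y) ≤ 256 := by
  by_contra c
  have a1 : ∀ g ∈ Y, g ≠ 1 → Nat.card (AddMonoidHom.id V + T g).range = 4 := fun g j o => by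
    obtain ⟨k, -, e⟩ := x.tr y i g j n o
    have b1 := cle h e
    have b2 := four h (ωC h x l p j)
    have b3 : Nat.card (C T g) ≠ 4096 := fun f => nt h x l p o (AddSubgroup.eq_top_of_card_eq _ (f.trans h.card.symm))
    have b4 := cnt (AddMonoidHom.id V + T g)
    rw [h.card, show Nat.card (C T g) = 1024 by omega] at b4
    omega
  have ωI : ∀ g ∈ Y, ∀ v ∈ (AddMonoidHom.id V + T g).range, T d v ∈ (AddMonoidHom.id V + T g).range := by
    rintro g j _ ⟨w, rfl⟩
    exact ⟨T d w, show T d w + T g (T d w) = T d (w + T g w) by rw [map_add, cω h (l (x.YK j))]⟩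
  have pI : ∀ g ∈ Y, ∀ v, v ∈ C T g ↔ ∀ w ∈ (AddMonoidHom.id V + T g).range, β v w = 0 := fun g j v => by
    have t : ∀ w, β (v + T g v) w = β v (w + T g w) := fun w => by
      rw [map_add, map_add, AddMonoidHom.add_apply, ← h.inv (h.qT g) (T g v), ← h.mul, x.Y2 g j, h.one]
    exact ⟨by rintro o _ ⟨w, rfl⟩; exact (t w).symm.trans (by rw [show v + T g v = 0 from o]; simp),
      fun o => h.nd _ fun w => (t w).trans (o _ ⟨w, rfl⟩)⟩
  obtain ⟨g, j, o⟩ : ∃ g ∈ Y, g ∉ ({1, y} : Set Γ) := by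
    by_contra! k
    have := (Set.ncard_le_ncard (show (Y : Set Γ) ⊆ {1, y} from k)).trans (Set.ncard_insert_le _ _)
    rw [← Nat.card_coe_set_eq, Set.ncard_singleton] at this
    simp only [SetLike.coe_sort_coe, x.cY] at this; omega
  have g1 : g ≠ 1 := fun e => o (.inl e)
  have gy : y ≠ g := fun e => o (.inr e.symm)
  have yg : y * g ≠ 1 := fun e => gy (mul_left_cancel ((x.Y2 y i).trans e.symm))
  obtain ⟨v, v1, v2⟩ : ∃ v ∈ C T g, v ∉ C T y := by
    by_contra! k
    obtain ⟨t, -, e⟩ := x.tr y i g j n g1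
    have := ne h x l p i j n g1 gy (AddSubgroup.eq_of_le_of_card_ge (show C T g ≤ C T y from k) (cle h e)).symm
    omega
  have a2 := four h (W := (AddMonoidHom.id V + T y).range ⊓ (AddMonoidHom.id V + T (y * g)).range)
    fun v o => ⟨ωI y i v o.1, ωI _ (mul_mem i j) v o.2⟩
  have a3 : Nat.card ↥((AddMonoidHom.id V + T y).range ⊓ (AddMonoidHom.id V + T (y * g)).range) ≠ 1 := fun e =>
    v2 ((AddSubgroup.card_eq_one.1 e).le ⟨⟨v, rfl⟩, v, show v + T (y * g) v = v + T y v by rw [h.mul, mC.1 v1]⟩)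
  have e1 := AddSubgroup.eq_of_le_of_card_ge (inf_le_left : (AddMonoidHom.id V + T y).range ⊓
    (AddMonoidHom.id V + T (y * g)).range ≤ _) (by rw [a1 y i n]; omega)
  have e2 := AddSubgroup.eq_of_le_of_card_ge (inf_le_right : (AddMonoidHom.id V + T y).range ⊓
    (AddMonoidHom.id V + T (y * g)).range ≤ _) (by rw [a1 _ (mul_mem i j) yg]; omega)
  have := ne h x l p i (mul_mem i j) n yg (fun e => g1 (left_eq_mul.1 e)) (AddSubgroup.ext fun v => by
    rw [pI y i, pI _ (mul_mem i j), e1.symm.trans e2])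
  omega

omit h x l p in
theorem u2 : U2Stmt.{u} := by
  intro V _ _ _ Γ _ _ T d M K Y β q B h x l p
  refine ⟨fun y i n U k => (AddSubgroup.card_le_of_le (show U ≤ C T y from fun v o => mC.2 (k v o))).trans (c256 h x l p i n),
    fun y i y' j n n' m v e e' => ?_⟩
  have a1 := four h (W := C T y ⊓ C T y') fun v o => ⟨ωC h x l p i v o.1, ωC h x l p j v o.2⟩
  have b := le_inf (BC h x l p i) (BC h x l p j)
  have a2 := AddSubgroup.card_le_of_le b
  have a3 := c256 h x l p i n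
  have a4 := c256 h x l p j n'
  have a5 := AddSubgroup.card_le_of_le (inf_le_left : C T y ⊓ C T y' ≤ _)
  refine (AddSubgroup.eq_of_le_of_card_ge b ?_).ge ⟨mC.2 e, mC.2 e'⟩
  rw [p.cB] at a2 ⊢
  by_contra c
  have e1 := AddSubgroup.eq_of_le_of_card_ge (inf_le_left : C T y ⊓ C T y' ≤ _) (by omega)
  have e2 := AddSubgroup.eq_of_le_of_card_ge (inf_le_right : C T y ⊓ C T y' ≤ _) (by omega)
  have := ne h x l p i j n n' m (e1.symm.trans e2)
  omega

end H18.JU
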