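import Mathlib
import Cfsg.Agent.H10.Max

/-!
# Stabiliser of a non-singular point in characteristic 2, dimension at least 5 (namespace `H18.W1`)

`E_le_of_stab_vec`: version of `H10.Form.Std.E_le_of_stab_vec` for finite fields and `5 ≤ n`.
-/

namespace H18.W1

open Module H10 H10.Form

variable {F V : Type*} [Field F] [AddCommGroup V] [Module F V] {φ : Form F V}
  [φ.Nondeg] [FiniteDimensional F V]

theorem ex_sing [Finite F] (h0 : φ.IsQuad) {v : V} (hv : φ.Q v ≠ 0) (hv' : φ.B v v = 0) (hn : 5 ≤ finrank F V)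
    (u : V) : ∃ p, p ∉ Submodule.span F {v, u} ∧ φ.Q p = 0 ∧ φ.B v p = 0 ∧ φ.B u p = 0 := by
  by_cases e : φ.B u v = 0
  · obtain ⟨w, -, hw, h3⟩ := φ.exists_orth ⊤ (Submodule.span F {v, u}) [v, u]
      (by have := finrank_span_pair_le (F := F) v u; simp; omega)
    simp only [List.mem_cons, List.not_mem_nil, or_false, forall_eq_or_imp, forall_eq] at h3
    have h2 : (2 : F) = 0 := by
      rw [h0.B_self] at hv'
      exact (mul_eq_zero.1 hv').resolve_right hv
    have c2 : ringChar F = 2 := by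
      have := CharP.ringChar_of_prime_eq_zero Nat.prime_two (R := F) (by exact_mod_cast h2)
      exact this
    obtain ⟨c, hc⟩ := FiniteField.isSquare_of_char_two c2 (φ.Q w / φ.Q v)
    refine ⟨w + c • v, fun m => hw ?_, ?_, by simp [h3.1, hv'], by simp [h3.2, e]⟩
    · exact (add_mem_cancel_right (Submodule.smul_mem _ c (Submodule.subset_span (by simp)))).1 m
    · rw [h0.Q_add, h0.Q_smul, map_smul, φ.B_symm_zero h3.1, smul_zero, add_zero, ← hc, div_mul_cancel₀ _ hv,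
        ← two_mul, h2, zero_mul]
  · obtain ⟨p, -, hp, hQ, h3⟩ := (h0.std hn).exists_sing_orth ⊤ ⊥ [v, u] (by simp; omega)
    simp only [List.mem_cons, List.not_mem_nil, or_false, forall_eq_or_imp, forall_eq] at h3
    refine ⟨p, fun m => hp ?_, hQ, h3⟩
    obtain ⟨a, b, rfl⟩ := Submodule.mem_span_pair.1 m
    have e' : φ.B v u ≠ 0 := fun k => e (φ.B_symm_zero k)
    have b0 : b = 0 := by simpa [hv', e'] using h3.1
    have a0 : a = 0 := by simpa [b0, e] using h3.2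
    simp [a0, b0]

/-- maximality of the stabiliser of a non-singular isotropic point -/
theorem E_le_of_stab_vec [Finite F] (h0 : φ.IsQuad) {v : V} (hv : φ.Q v ≠ 0) (hv' : φ.B v v = 0)
    (hn : 5 ≤ finrank F V)
    {M : Subgroup φ.Isom} (hM : φ.E ⊓ φ.stab (F ∙ v) ≤ M) {g : φ.Isom} (hg : g ∈ M)
    (h1 : g ∉ φ.stab (F ∙ v)) : φ.E ≤ M := by
  have hA : ∀ p w s, φ.Q p = 0 → φ.B p w = 0 → φ.T s = φ.Q w → φ.B p v = 0 → φ.B w v = 0 →
      φ.siegel p w s ∈ M := fun p w s h2 h3 h4 h5 h6 => hM ⟨φ.siegel_mem_E h2 h3 h4,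
    φ.fix_le_stab _ (φ.mem_fix_span.2 (by simpa using siegel_apply_of_orth h2 h3 h4 h5 h6))⟩
  have h2 : g.1 v ∉ F ∙ v := fun h0 => h1 (φ.mem_stab_of_le fun x hx => by
    obtain ⟨c, rfl⟩ := Submodule.mem_span_singleton.1 hx
    rw [map_smul]; exact Submodule.smul_mem _ c h0)
  obtain ⟨p, hp, hQ, h3⟩ := ex_sing h0 hv hv' hn (g.1 v)
  have hX : ∀ t, φ.T t = 0 → φ.siegel p 0 t ∈ M := fun t ht =>
    hA p 0 t hQ (by simp) (by simpa using ht) (φ.B_symm_zero h3.1) (by simp)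
  obtain ⟨u, hu, hu'⟩ := φ.exists_sep' (W := Submodule.span F {p, v}) (u := g.1 v) fun h0 => by
    obtain ⟨a, b, hab⟩ := Submodule.mem_span_pair.1 h0
    by_cases ha : a = 0
    · exact h2 (Submodule.mem_span_singleton.2 ⟨b, by simpa [ha] using hab⟩)
    · exact hp (Submodule.mem_span_pair.2 ⟨-(a⁻¹ * b), a⁻¹, by
        rw [← hab, smul_add, smul_smul, smul_smul, inv_mul_cancel₀ ha]; module⟩)
  obtain ⟨h4, h5⟩ := φ.mem_perp_pair.1 (φ.mem_perp.2 hu)
  have h6 : φ.Full M p := full_of_le_sgSub (hp := hQ) (hX := hX) fun w hw => by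
    rw [mem_perp_singleton] at hw
    rw [← sub_add_cancel w (φ.B (g.1 v) w • u)]
    refine add_mem (mem_sgSub_of (by simp [hw, h4]) fun c s hs => ?_) (Submodule.smul_mem _ _
      (mem_sgSub_of h4 fun c s hs => hA p _ s hQ (by simp [h4]) hs (φ.B_symm_zero h3.1)
        (φ.B_symm_zero (by simp [h5]))))
    have h7 : φ.B p (c • (w - φ.B (g.1 v) w • u)) = 0 := by simp [hw, h4]
    simpa [Isom.apply_inv_apply] using siegel_conj_mem hg (p := (g⁻¹).1 p)
      (w := (g⁻¹).1 (c • (w - φ.B (g.1 v) w • u))) (by simpa using hQ) (by rwa [Isom.B_map])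
      (by rwa [Isom.Q_map]) (hA _ _ s (by simpa using hQ) (by rwa [Isom.B_map]) (by rwa [Isom.Q_map])
        (by rw [← Isom.B_map g, Isom.apply_inv_apply]; exact φ.B_symm_zero h3.2)
        (by rw [← Isom.B_map g, Isom.apply_inv_apply]; exact φ.B_symm_zero (by simp [hu'])))
  obtain ⟨f, hf, hyp⟩ := φ.exists_partner (W := F ∙ v) hQ
    (fun h0 => hp (Submodule.span_mono (by simp) h0)) (φ.mem_perp_singleton.2 h3.1)
  obtain ⟨s, hs, -⟩ := φ.half v
  have h7 := φ.B_symm_zero (φ.mem_perp_singleton.1 hf)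
  exact h6.E_le_of_siegel hyp (φ.B_symm_zero h3.1) h7 hs (by rintro rfl; simp [hv.symm] at hs)
    (hA f v s hyp.Qf h7 hs h7 hv')

end H18.W1
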