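import Mathlib
import Cfsg.Agent.H16.Sl4B
import Cfsg.Agent.H10.Iso2
import Cfsg.Agent.H09.UFacts

/-!
# The model `SU₄(q) → O₆⁻(q)` of the Klein correspondence (namespace `H18`)

`H18.mdSU`.
-/

set_option autoImplicit false
open Cfsg Matrix Cfsg.Geo Module H10 H16.Kl
open scoped MatrixGroups

namespace H18
namespace MdSU

variable {F : Type*} [Field F] [Finite F] {q : ℕ} (hF : Nat.card F = q ^ 2)

/-- the fixed field -/
def K0 : Subfield F := (conj hF).eqLocusField (RingHom.id F)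

theorem mK {c : F} : c ∈ K0 hF ↔ c ^ q = c := Iff.rfl

/-- the rational structure -/
def V0 : Submodule (K0 hF) (Fin 3 ⊕ Fin 3 → F) where
  carrier := {v | ∀ i, v i.swap = conj hF (v i)}
  add_mem' := fun {a b} ha hb i => by rw [Pi.add_apply, Pi.add_apply, map_add, ha, hb]
  zero_mem' := fun i => by simp
  smul_mem' := fun c a ha i => by
    show c.1 * a i.swap = conj hF (c.1 * a i)
    rw [map_mul, ha, show conj hF c.1 = c.1 from c.2]

theorem mV {v : Fin 3 ⊕ Fin 3 → F} : v ∈ V0 hF ↔ ∀ i, v i.swap = conj hF (v i) := Iff.rfl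

theorem QK (v : V0 hF) : (φ6 F).Q v.1 ∈ K0 hF := by
  show conj hF _ = (φ6 F).Q v.1
  simp only [Q6, map_add, map_mul, ← (mV hF).1 v.2, Sum.swap_inl, Sum.swap_inr]
  ring

/-- the quadratic form -/
noncomputable def Q0 : QuadraticForm (K0 hF) (V0 hF) := QuadraticMap.ofPolar (fun v => ⟨(φ6 F).Q v.1, QK hF v⟩)
  (fun a x => Subtype.ext (by
    show (φ6 F).Q (a.1 • x.1) = a.1 * a.1 * (φ6 F).Q x.1
    rw [q6.Q_smul]))
  (fun x x' y => Subtype.ext (by
    show (φ6 F).Q (x.1 + x'.1 + y.1) - (φ6 F).Q (x.1 + x'.1) - (φ6 F).Q y.1 =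
      ((φ6 F).Q (x.1 + y.1) - (φ6 F).Q x.1 - (φ6 F).Q y.1) + ((φ6 F).Q (x'.1 + y.1) - (φ6 F).Q x'.1 - (φ6 F).Q y.1)
    simp only [q6.Q_add, map_add, LinearMap.add_apply]; ring))
  (fun a x y => Subtype.ext (by
    show (φ6 F).Q (a.1 • x.1 + y.1) - (φ6 F).Q (a.1 • x.1) - (φ6 F).Q y.1 =
      a.1 * ((φ6 F).Q (x.1 + y.1) - (φ6 F).Q x.1 - (φ6 F).Q y.1)
    simp only [q6.Q_add, q6.B_smul_left]; ring))

/-- the form -/
noncomputable def φ0 : Form (K0 hF) (V0 hF) := Form.ofQuad (Q0 hF)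

theorem q0 : (φ0 hF).IsQuad := Form.isQuad_ofQuad _

theorem eQ (x : V0 hF) : ((φ0 hF).Q x).1 = (φ6 F).Q x.1 := rfl

theorem eB (x y : V0 hF) : ((φ0 hF).B x y).1 = (φ6 F).B x.1 y.1 := by
  have := congrArg Subtype.val ((q0 hF).Q_add x y)
  rw [Subfield.coe_add, Subfield.coe_add, eQ, eQ, eQ, Submodule.coe_add, q6.Q_add] at this
  linear_combination -this

theorem nd : (φ0 hF).Nondeg := ⟨fun x h => by
  obtain ⟨t, ht⟩ := exists_not_fixed hF
  have k : ∀ (i : Fin 3) (c : F), x.1 (.inr i) * c + conj hF (x.1 (.inr i)) * conj hF c = 0 := fun i c => by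
    have := congrArg Subtype.val (h ⟨Sum.elim (Pi.single i c) (Pi.single i (conj hF c)), fun j => by
      rcases j with j | j <;> by_cases e : j = i <;> simp [Pi.single_apply, e, conj_conj]⟩)
    rw [eB, B6] at this
    rw [← (mV hF).1 x.2]
    fin_cases i <;> simp at this ⊢ <;> linear_combination this
  have k0 : ∀ i : Fin 3, x.1 (.inr i) = 0 := fun i => by
    have a := k i 1
    have b := k i t
    rw [map_one] at a
    refine (mul_eq_zero.1 (show x.1 (.inr i) * (t - conj hF t) = 0 by linear_combination b - conj hF t * a)).resolve_right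
      fun e => ht (sub_eq_zero.1 e).symm
  refine Subtype.ext (funext fun i => ?_)
  rcases i with i | i
  · exact ((mV hF).1 x.2 (.inr i)).trans (by rw [k0, map_zero]; rfl)
  · exact k0 i⟩

theorem cK : Nat.card (K0 hF) = q := card_fixed hF

theorem n6 : finrank (K0 hF) (V0 hF) = 6 := by
  have e : V0 hF ≃ (Fin 3 → F) :=
    { toFun := fun v i => v.1 (.inl i)
      invFun := fun u => ⟨Sum.elim u fun i => conj hF (u i), fun j => by rcases j with j | j <;> simp [conj_conj]⟩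
      left_inv := fun v => Subtype.ext (funext fun j => by
        rcases j with j | j
        · rfl
        · exact ((mV hF).1 v.2 (.inl j)).symm)
      right_inv := fun u => rfl }
  have a := Module.natCard_eq_pow_finrank (K := K0 hF) (V := V0 hF)
  rw [Nat.card_congr e, Nat.card_fun, hF, cK, Nat.card_eq_fintype_card, Fintype.card_fin, ← pow_mul] at a
  exact (Nat.pow_right_injective (two_le_q hF) a).symm

theorem mem_L2 (g : ↥(GU 4 F q ⊓ specialLinear (Fin 4) F)) (x : V0 hF) : L2 g.1.1 *ᵥ x.1 ∈ V0 hF := fun i => by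
  have h1 : ((L2 g.1.1).map (conj hF))ᵀ * L2 g.1.1 = 1 := by
    rw [← L2_map, ← L2_transpose, ← L2_mul, show (g.1.1.map (conj hF))ᵀ * g.1.1 = 1 from
      (H09.mem_GU_iff hF).1 g.2.1, L2_one]
  have h2 : (L2 g.1.1)ᵀ * (L2 g.1.1).map (conj hF) = 1 := by
    have := congrArg transpose h1
    rwa [transpose_mul, transpose_transpose, transpose_one] at this
  have key : ∀ i j, conj hF (L2 g.1.1 i j) = L2 g.1.1 i.swap j.swap := fun i j =>
    congrFun (congrFun (Matrix.right_inv_eq_right_inv h2 (L2_orth (H09.mem_specialLinear.1 g.2.2))) i) j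
  simp only [Matrix.mulVec, dotProduct, map_sum, map_mul, key, ← (mV hF).1 x.2, Fintype.sum_sum_type, Sum.swap_inl,
    Sum.swap_inr, map_add]
  exact add_comm _ _

/-- the action, as a function -/
def act (g : ↥(GU 4 F q ⊓ specialLinear (Fin 4) F)) (x : V0 hF) : V0 hF := ⟨L2 g.1.1 *ᵥ x.1, mem_L2 hF g x⟩

theorem lin (g : ↥(GU 4 F q ⊓ specialLinear (Fin 4) F)) : IsLinearMap (K0 hF) (act hF g) :=
  ⟨fun x y => Subtype.ext (mulVec_add (L2 g.1.1) x.1 y.1), fun c x => Subtype.ext (mulVec_smul (L2 g.1.1) c.1 x.1)⟩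

theorem amul (a b : ↥(GU 4 F q ⊓ specialLinear (Fin 4) F)) (x : V0 hF) : act hF (a * b) x = act hF a (act hF b x) :=
  Subtype.ext (by simp [act, L2_mul])

theorem iso (g : ↥(GU 4 F q ⊓ specialLinear (Fin 4) F)) : (φ0 hF).IsIsom (act hF g) :=
  (q0 hF).isIsom (g := (lin hF g).mk' _) fun x =>
    Subtype.ext ((Q_L2 _ _).trans (by rw [H09.mem_specialLinear.1 g.2.2, one_mul]; rfl))

/-- the action -/
noncomputable def π0 : ↥(GU 4 F q ⊓ specialLinear (Fin 4) F) →* (φ0 hF).Isom :=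
  haveI := nd hF
  (φ0 hF).homOfFun (act hF) (lin hF) (amul hF) (iso hF)

theorem π0_apply (g : ↥(GU 4 F q ⊓ specialLinear (Fin 4) F)) (x : V0 hF) : (π0 hF g).1 x = act hF g x :=
  haveI := nd hF
  Form.homOfFun_apply (act hF) (lin hF) (amul hF) (iso hF) g x

omit [Finite F] in
theorem alt6_map (σ : F →+* F) (v : Fin 3 ⊕ Fin 3 → F) : (alt6 v).map σ = alt6 (σ ∘ v) := by
  ext i j; fin_cases i <;> fin_cases j <;> simp [alt6]

theorem md : Md (φ0 hF) (GU 4 F q ⊓ specialLinear (Fin 4) F) (V0 hF).subtype (π0 hF) := by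
  have := nd hF
  refine ⟨q0 hF, n6 hF, Subtype.val_injective, fun _ => rfl, fun g x => congrArg Subtype.val (π0_apply hF g x),
    fun p w _ hw g g1 g2 g3 => ⟨(H09.mem_GU_iff hF).2 ?_,
      H09.mem_specialLinear.2 g3⟩, perf_of (SpecialLinearGroup.toGL.comp (SU 4 F q).subtype)
      (SU_commutator_eq_top hF (by norm_num) (by simp)) (SetLike.ext fun g => ⟨?_, fun h => ?_⟩)⟩
  · have a1 : (alt6 p.1).map (conj hF) = du p.1 := by
      rw [alt6_map, du]; congr 1; exact funext fun i => ((mV hF).1 p.2 i).symm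
    have a2 : (du w.1).map (conj hF) = alt6 w.1 := by
      rw [du, alt6_map]; congr 1; exact funext fun i => ((mV hF).1 w.2 i.swap).symm.trans (by simp)
    have a3 := ad_jor p.1 w.1
    rw [← eB, hw, ZeroMemClass.coe_zero, neg_zero, zero_smul] at a3
    have a4 : (g.1.map (conj hF))ᵀ = (g⁻¹).1 := by
      rw [g2, g1, Matrix.map_sub _ (map_sub _), Matrix.map_mul, Matrix.map_one _ (map_zero _) (map_one _)]
      simp only [Submodule.subtype_apply]
      rw [a1, a2, transpose_sub, transpose_mul, alt6_T, du_T, transpose_one, neg_mul_neg]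
      linear_combination (norm := noncomm_ring) -a3
    exact (congrArg (· * g.1) a4).trans g.inv_mul
  · rintro ⟨g, rfl⟩
    exact ⟨g.2, H09.mem_specialLinear.2 g.1.2⟩
  · exact ⟨⟨⟨g.1, H09.mem_specialLinear.1 h.2⟩, h.1⟩, Units.ext rfl⟩

end MdSU

theorem mdSU {F : Type*} [Field F] [Finite F] {q : ℕ} (hF : Nat.card F = q ^ 2) :
    ∃ (K : Subfield F) (V : Submodule K (Fin 3 ⊕ Fin 3 → F)) (φ : H10.Form K V) (_ : φ.Nondeg)
      (π : ↥(GU 4 F q ⊓ specialLinear (Fin 4) F) →* φ.Isom),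
      Md φ (GU 4 F q ⊓ specialLinear (Fin 4) F) V.subtype π ∧ Nat.card K = q ∧ (∀ c, c ∈ K ↔ c ^ q = c) ∧
        ∀ v, v ∈ V ↔ ∀ i, v i.swap = v i ^ q :=
  ⟨MdSU.K0 hF, MdSU.V0 hF, MdSU.φ0 hF, MdSU.nd hF, MdSU.π0 hF, MdSU.md hF, MdSU.cK hF, fun _ => Iff.rfl,
    fun _ => Iff.rfl⟩

end H18
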