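import Cfsg.Agent.H21.KG0

/-! A hidden lemma for part Pa of S5569: `[v, Y] ⊄ [V, y]` for `v ∈ C_V(y) ∖ B`. -/

set_option autoImplicit false
set_option linter.unusedSectionVars false
open Subgroup H01.XT H01.XF Cfsg.Agent.H06.J H21.JU1 H21.KG

namespace H18.YH
universe u
variable {V : Type u} [AddCommGroup V] [Module (ZMod 2) V] [Finite V] {Γ : Type u} [Group Γ] [Finite Γ]
  {T : Γ → V →+ V} {d : Γ} {M K Y : Subgroup Γ} {β : V →+ V →+ ZMod 2} {q : V → ZMod 2} {B : AddSubgroup V}

theorem gs [Fintype V] (h : QF β q) (H : V → ZMod 2) (N : V → V) (pol : ∀ u v, H (u + v) = H u + H v + β u (N v))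
    (H0 : ∀ t, N t = 0 → H t = 0) (cB : {t | N t = 0}.ncard = 256) : (∑ v, ch (H v)) ^ 2 = 1024 ^ 2 := by
  classical
  have cV : Fintype.card V = 4096 := by rw [← Nat.card_eq_fintype_card, h.card]
  have e2 : ∀ t : V, ch (H t) * ∑ u : V, ch (β u (N t)) = if N t = 0 then (4096 : ℤ) else 0 := fun t => by
    split_ifs with n
    · simp [n, H0 t n, ch0, cV]
    · obtain ⟨x, j⟩ : ∃ x, β x (N t) = 1 := by
        by_contra! o
        exact n (h.nd _ fun v => (h.sym _ _).trans ((z2 _).resolve_right (o v)))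
      have := Equiv.sum_comp (Equiv.addRight x) fun v : V => ch (β v (N t))
      simp only [Equiv.coe_addRight, map_add, AddMonoidHom.add_apply, ch_add, j, ch1, mul_neg, mul_one,
        Finset.sum_neg_distrib] at this
      rw [show ∑ u : V, ch (β u (N t)) = 0 by omega, mul_zero]
  rw [sq, Finset.sum_mul_sum]
  have e3 : ∀ u : V, ∑ v : V, ch (H u) * ch (H v) = ∑ t : V, ch (H t) * ch (β u (N t)) := fun u => by
    rw [← Equiv.sum_comp (Equiv.addLeft u)]
    refine Finset.sum_congr rfl fun w _ => ?_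
    simp only [Equiv.coe_addLeft, pol, ch_add, ← mul_assoc, ch_sq, one_mul]
  simp only [e3]
  rw [Finset.sum_comm]
  simp only [← Finset.mul_sum, e2]
  rw [← Nat.card_coe_set_eq] at cB
  rw [← Finset.sum_filter, Finset.sum_const, ← Fintype.card_subtype, ← Nat.card_eq_fintype_card]
  erw [cB]
  norm_num

theorem hx (g : Gj T d M β q) (x : Hx d K Y) (KM : K ≤ M) (p : Pj T d K Y q B) (i : Pi T Y B)
    (c : ∀ y ∈ Y, y ≠ 1 → {v | T y v = v}.ncard = 256) {y0 : Γ} (hy0 : y0 ∈ Y) (n0 : y0 ≠ 1) {v0 : V} (f0 : T y0 v0 = v0)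
    (b0 : v0 ∉ B) : ∃ y2 ∈ Y, β (v0 + T y2 v0) (T d v0) ≠ 0 := by
  classical
  by_contra! hz
  have := Fintype.ofFinite V
  have := Fintype.ofFinite Γ
  have cw : ∀ y ∈ K, ∀ v, T y (T d v) = T d (T y v) := fun y hy v => by rw [← g.mul, ← g.mul, g.Md y (KM hy)]
  have bi : ∀ k u v, β (T k u) (T k v) = β u v := fun k => g.toQF.inv (g.qT k)
  let H : Γ → V → ZMod 2 := fun y v => β (T d v) (v + T y v)
  have pol : ∀ y ∈ Y, ∀ u v, H y (u + v) = H y u + H y v + β u (v + T y v) := fun y hy u v => by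
    have yy : ∀ v, T y (T y v) = v := fun v => by rw [← g.mul, x.Y2 y hy, g.one]
    have a : β (T d v) (u + T y u) = β (T d u) (T d (T d (v + T y v))) := by
      rw [bi, map_add, ← bi y (T d v) (T y u), yy, cw y (x.YK hy), map_add (T d), map_add (β u), g.toQF.sym u, g.toQF.sym u]
    have b : β (T d u) (v + T y v) + β (T d u) (T d (T d (v + T y v))) = β u (v + T y v) := by
      rw [← map_add, show v + T y v + T d (T d (v + T y v)) = T d (v + T y v) from lc (g.hf (v + T y v)), bi]
    simp only [H]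
    rw [map_add (T d), map_add (T y), show u + v + (T y u + T y v) = u + T y u + (v + T y v) by abel, map_add β,
      AddMonoidHom.add_apply, map_add (β (T d u)) (u + T y u), map_add (β (T d v)) (u + T y u), a, ← b]
    abel
  have Hω : ∀ y ∈ Y, ∀ v, H y (T d v) = H y v := fun y hy v => by
    simp only [H]; rw [cw y (x.YK hy), ← map_add, bi]
  have HB : ∀ y ∈ Y, ∀ v, ∀ b ∈ B, H y (v + b) = H y v := fun y hy v b j => by
    have e : b + T y b = 0 := by rw [(p.mB b).1 j y hy]; exact lc0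
    rw [pol y hy]; simp only [H, e, map_zero, add_zero]
  have H0 : ∀ y ∈ Y, H y v0 = 0 := fun y hy => (g.toQF.sym _ _).trans (hz y hy)
  let U : AddSubgroup V :=
    { carrier := {v | T y0 v = v}
      zero_mem' := map_zero _
      add_mem' := fun {a b} (ha : T y0 a = a) (hb : T y0 b = b) => show T y0 (a + b) = a + b by rw [map_add, ha, hb]
      neg_mem' := fun {a} (ha : T y0 a = a) => show T y0 (-a) = -a by rw [map_neg, ha] }
  have cU : Nat.card U = 256 := (Nat.card_coe_set_eq _).trans (c y0 hy0 n0)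
  have ww : ∀ v, T d (T d v) = v + T d v := fun v => lc (g.hf v)
  have n1 : T d v0 ∉ ex B v0 := fun o => by
    rcases mem_ex.1 o with o | o
    · exact b0 ((show v0 = T d (T d v0) + T d v0 from lc (g.hf v0)) ▸ add_mem (p.Bω _ o) o)
    · have := p.Bω _ o
      rw [map_add, ww] at this
      exact b0 ((show v0 = v0 + T d v0 + T d v0 from lc0) ▸ this)
  have eU : ex (ex B v0) (T d v0) = U := AddSubgroup.eq_of_le_of_card_ge
    (ex_le (ex_le (fun v hv => (p.mB v).1 hv y0 hy0) f0) (show T y0 (T d v0) = T d v0 by rw [cw y0 (x.YK hy0), f0])) (by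
      have a1 := card_ex b0
      have a2 := card_ex n1
      rw [p.cB] at a1; omega)
  have z0 : ∀ v, T y0 v = v → ∀ y ∈ Y, H y v = 0 := fun v hv y hy => by
    have o : v ∈ ex (ex B v0) (T d v0) := eU.ge hv
    rcases mem_ex.1 o with o | o <;> rcases mem_ex.1 o with o | o
    · rw [← zero_add v, HB y hy _ _ o]; simp [H]
    · rw [show v = v0 + (v + v0) from lc0, HB y hy _ _ o, H0 y hy]
    · rw [show v = T d v0 + (v + T d v0) from lc0, HB y hy _ _ o, Hω y hy, H0 y hy]
    · rw [show v = v0 + T d v0 + (v + T d v0 + v0) from lc0, HB y hy _ _ o, ← ww, Hω y hy, Hω y hy, H0 y hy]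
  have z1 : ∀ y ∈ Y, y ≠ 1 → ∀ v, T y v = v → H y0 v = 0 := fun y hy n v e => by
    obtain ⟨k, hk, rfl⟩ := x.tr y0 hy0 y hy n0 n
    rw [g.mul, g.mul] at e
    have := z0 (T k⁻¹ v) (by conv_rhs => rw [← e, li g]) _ (x.nY _ (inv_mem hk) _ hy0)
    simp only [H] at this ⊢
    rwa [g.mul, g.mul, inv_inv, ri g, ← cw _ (inv_mem hk), ← map_add, bi] at this
  have a := gs g.toQF (H y0) _ (pol y0 hy0) (fun t e => by simp only [H, e, map_zero]) (by
    rw [← c y0 hy0 n0]; congr 1; ext v; exact ⟨fun e => lc e, fun e => show v + T y0 v = 0 by rw [show T y0 v = v from e]; exact lc0⟩)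
  have e1 : ∑ v, ch (H y0 v) = 2 * ((Finset.univ.filter fun v => H y0 v = 0).card : ℤ) - 4096 := by
    have : ∀ v, ch (H y0 v) = 2 * (if H y0 v = 0 then 1 else 0) - 1 := fun v => by unfold ch; split_ifs <;> rfl
    simp only [this, Finset.sum_sub_distrib, ← Finset.mul_sum, Finset.sum_boole, Finset.sum_const, Finset.card_univ,
      nsmul_eq_mul, mul_one, ← Nat.card_eq_fintype_card (α := V), g.card]
    rfl
  have cY : (Finset.univ.filter fun y => y ∈ Y ∧ y ≠ 1).card = 15 := by
    have := x.cY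
    rw [Nat.card_eq_fintype_card, Fintype.card_subtype] at this
    rw [show (Finset.univ.filter fun y => y ∈ Y ∧ y ≠ 1) = (Finset.univ.filter fun y => y ∈ Y).erase 1 by ext; simp [and_comm],
      Finset.card_erase_of_mem (by simp [one_mem]), this]
  have c1 : ∀ y ∈ Y, y ≠ 1 → (Finset.univ.filter fun v => T y v = v ∧ v ∉ B).card = 192 := fun y hy n => by
    have a1 := c y hy n
    have a2 := p.cB
    rw [Set.ncard_eq_toFinset_card', Set.toFinset_setOf] at a1
    rw [Nat.card_eq_fintype_card, Fintype.card_subtype] at a2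
    rw [show (Finset.univ.filter fun v => T y v = v ∧ v ∉ B) =
      (Finset.univ.filter fun v => T y v = v) \ (Finset.univ.filter fun v => v ∈ B) by ext; simp,
      Finset.card_sdiff_of_subset (fun v o => by simpa using (p.mB v).1 (by simpa using o) y hy), a1, a2]
  have l := Finset.card_le_card (show (Finset.univ.filter fun y => y ∈ Y ∧ y ≠ 1).biUnion
      (fun y => Finset.univ.filter fun v => T y v = v ∧ v ∉ B) ⊆ Finset.univ.filter fun v => H y0 v = 0 from fun v o => by
    simp only [Finset.mem_biUnion, Finset.mem_filter, Finset.mem_univ, true_and] at o ⊢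
    obtain ⟨y, ⟨hy, n⟩, e, -⟩ := o
    exact z1 y hy n v e)
  rw [Finset.card_biUnion (fun y hy y' hy' n => Finset.disjoint_filter.2 fun v _ o o' => by
    simp only [Finset.coe_filter, Finset.mem_univ, true_and, Set.mem_setOf_eq] at hy hy'
    exact o.2 (i.two y hy.1 y' hy'.1 hy.2 hy'.2 n v o.1 o'.1)), Finset.sum_congr rfl fun y hy => c1 y
      (Finset.mem_filter.1 hy).2.1 (Finset.mem_filter.1 hy).2.2, Finset.sum_const, cY] at l
  rw [e1] at a
  simp only [smul_eq_mul] at l
  rcases sq_eq_sq_iff_eq_or_eq_neg.1 a with b | b <;> omega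

end H18.YH
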