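import Mathlib
import Cfsg.Agent.H19.Dm0
import Cfsg.Agent.S0111

/-!
# The 3-local characterization of the symmetric group of degree eight: the subgroup of index two in case A
-/

set_option autoImplicit false
set_option maxRecDepth 100000

namespace H18.Dm
open Equiv Subgroup H19.Dm

theorem cj {x y : Perm (Fin 8)} (hx : x ^ 2 = 1) (hy : y ^ 2 = 1) (c : x.support.card = y.support.card) : IsConj x y := by
  have a1 := Perm.cycleType_of_pow_prime_eq_one hx
  have a2 := Perm.cycleType_of_pow_prime_eq_one hy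
  have b1 := x.sum_cycleType
  have b2 := y.sum_cycleType
  rw [a1, Multiset.sum_replicate, smul_eq_mul] at b1
  rw [a2, Multiset.sum_replicate, smul_eq_mul] at b2
  rw [Perm.isConj_iff_cycleType_eq, a1, a2, show Multiset.card x.cycleType = Multiset.card y.cycleType by omega]

theorem cls {x : Perm (Fin 8)} (hx : x ^ 2 = 1) : x = 1 ∨ IsConj (swap 6 7) x ∨ IsConj (swap 3 4 * swap 6 7) x ∨
    IsConj (swap 0 3 * swap 1 4 * swap 2 5) x ∨ IsConj (swap 0 3 * swap 1 4 * swap 2 5 * swap 6 7) x := by
  have a1 := Perm.cycleType_of_pow_prime_eq_one hx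
  have b1 := x.sum_cycleType
  rw [a1, Multiset.sum_replicate, smul_eq_mul] at b1
  have b2 : x.support.card ≤ 8 := x.support.card_le_univ.trans (by simp)
  have : x.support.card = 0 ∨ x.support.card = 2 ∨ x.support.card = 4 ∨ x.support.card = 6 ∨ x.support.card = 8 := by omega
  rcases this with e | e | e | e | e
  · exact .inl (Perm.support_eq_empty_iff.1 (Finset.card_eq_zero.1 e))
  · exact .inr (.inl (cj (by decide +kernel) hx (by rw [e]; decide +kernel)))
  · exact .inr (.inr (.inl (cj (by decide +kernel) hx (by rw [e]; decide +kernel))))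
  · exact .inr (.inr (.inr (.inl (cj (by decide +kernel) hx (by rw [e]; decide +kernel)))))
  · exact .inr (.inr (.inr (.inr (cj (by decide +kernel) hx (by rw [e]; decide +kernel)))))

theorem c1440 : Nat.card (centralizer ({swap 6 7} : Set (Perm (Fin 8)))) = 1440 := by
  rw [Perm.nat_card_centralizer, (Perm.isCycle_swap (by decide)).cycleType, Perm.card_support_swap (by decide)]
  simp [Nat.factorial]

variable {G : Type*} [Group G] [Finite G] {F : P35 →* G} {s : G}

theorem a4 (h : Hy F s) (ct : CT F s) (pi : PI F) (ps : PS F s) : IX F := by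
  obtain ⟨ψ, inj, e1, e2, e3⟩ := ps
  obtain ⟨π, πs, πk⟩ := pi
  have t1 : F t ≠ 1 := fun e => absurd (h.inj (e.trans (map_one F).symm)) (by decide +kernel)
  have t2 : F t * F t = 1 := by rw [← map_mul, k0.1, map_one]
  have ot : orderOf (F t) = 2 := orderOf_eq_prime (by rw [pow_two, t2]) t1
  have cC : Nat.card (centralizer ({F t} : Set G)) = 1440 := by
    have a1 := π.ker.card_mul_index
    have a2 : π.ker = zpowers ⟨F t, mem_centralizer_singleton_iff.2 rfl⟩ := le_antisymm (fun g i => by
      rcases (πk g).1 i with e | e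
      · rw [show g = 1 from Subtype.ext e]; exact one_mem _
      · rw [show g = ⟨F t, mem_centralizer_singleton_iff.2 rfl⟩ from Subtype.ext e]; exact mem_zpowers _)
      (zpowers_le.2 ((πk _).2 (.inr rfl)))
    rw [index_ker, MonoidHom.range_eq_top.2 πs, card_top, Nat.card_perm, a2, Nat.card_zpowers, ← Subgroup.orderOf_coe, ot] at a1
    simp [Nat.factorial] at a1
    omega
  have CG : centralizer ({F t} : Set G) = (centralizer ({swap 6 7} : Set (Perm (Fin 8)))).map ψ :=
    (Subgroup.eq_of_le_of_card_ge (by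
      rintro _ ⟨x, i, rfl⟩
      rw [mem_centralizer_singleton_iff, ← e1, ← map_mul, ← map_mul, mem_centralizer_singleton_iff.1 i])
      (by rw [cC, card_map_of_injective inj, c1440])).symm
  have sy : s * F (z * z') = F (z * z') * s := by
    have := h.sm (F z) (F z')
    rw [h.sz, h.sz', ← map_mul, ← map_mul, show z' * z = z * z' by decide +kernel] at this
    calc _ = s * F (z * z') * s * s := by rw [mul_assoc, h.s2, mul_one]
      _ = _ := by rw [this]
  have K : ∀ x, IsConj (F t) (ψ x) → IsConj (swap 6 7) x := fun x c => by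
    have x2 : x ^ 2 = 1 := inj (by
      obtain ⟨g, e⟩ := isConj_iff.1 c
      rw [map_pow, ← e, conj_pow, pow_two, t2, map_one]; simp)
    rcases cls x2 with rfl | k | k | k | k
    · rw [map_one, isConj_one_left] at c; exact absurd c t1
    · exact k
    · exact absurd (c.trans (e2 ▸ ψ.map_isConj k).symm) ct.2.1
    · have := ct.1 s (c.trans (e3 ▸ ψ.map_isConj k).symm) sy
      rw [← e1, ← e3] at this
      exact absurd (inj this) (by decide +kernel)
    · have k' := ψ.map_isConj k
      rw [map_mul, e3, e1] at k'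
      have := ct.1 _ (c.trans k'.symm) (by
        rw [mul_assoc, ← map_mul, show t * (z * z') = z * z' * t by decide +kernel, map_mul, ← mul_assoc, sy, mul_assoc])
      rw [← e1, ← e3, ← map_mul] at this
      exact absurd (inj this) (by decide +kernel)
  obtain ⟨S, hS⟩ := (IsPGroup.of_card (p := 2) (n := 1) (G := zpowers (swap 6 7 : Perm (Fin 8))) (by
    rw [Nat.card_zpowers, (Perm.isCycle_swap (by decide)).orderOf, Perm.card_support_swap (by decide)]; rfl)).exists_le_sylow
  have tS : swap 6 7 ∈ S := hS (mem_zpowers _)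
  obtain ⟨P, hP⟩ := (S.2.map ψ).exists_le_sylow
  have tT : F t ∈ (S : Subgroup (Perm (Fin 8))).map ψ := ⟨_, tS, e1⟩
  have eP : (S : Subgroup (Perm (Fin 8))).map ψ = P := by
    by_contra n
    have := P.2.isNilpotent
    obtain ⟨g, i, j⟩ := SetLike.exists_of_lt (normalizerCondition_of_isNilpotent (G := (P : Subgroup G))
      (((S : Subgroup (Perm (Fin 8))).map ψ).subgroupOf P) (lt_top_iff_ne_top.2 fun e => n (le_antisymm hP (subgroupOf_eq_top.1 e))))
    obtain ⟨x, -, e⟩ := (mem_normalizer_iff.1 i ⟨F t, hP tT⟩).1 tT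
    have e : ψ x = g.1 * F t * g.1⁻¹ := e
    obtain ⟨k, ek⟩ := isConj_iff.1 (K x (isConj_iff.2 ⟨_, e.symm⟩))
    rw [← ek, map_mul, map_mul, map_inv, e1] at e
    obtain ⟨y, -, ey⟩ := CG.le (show (ψ k)⁻¹ * g.1 ∈ centralizer ({F t} : Set G) from mem_centralizer_singleton_iff.2 (by
      rw [show (ψ k)⁻¹ * g.1 * F t = (ψ k)⁻¹ * (g.1 * F t * g.1⁻¹) * g.1 by group, ← e]; group))
    have eg : ψ (k * y) = g.1 := by rw [map_mul, ey]; group
    have := S.3 (P.2.comap_of_injective ψ inj) (map_le_iff_le_comap.1 hP)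
    exact j ⟨k * y, this.le (show ψ _ ∈ _ from eg ▸ g.2), eg⟩
  have nA : swap 6 7 ∉ alternatingGroup (Fin 8) := by rw [Perm.mem_alternatingGroup]; decide +kernel
  rcases Cfsg.Agent.S0111.result P ((alternatingGroup (Fin 8) ⊓ S).map ψ) (eP ▸ map_mono inf_le_right) (by
    rw [← eP, relIndex_map_map_of_injective _ _ inj, inf_relIndex_right]
    refine ((Nat.dvd_prime Nat.prime_two).1 ((relIndex_dvd_index_of_normal _ _).trans
      (alternatingGroup.index_eq_two (α := Fin 8)).dvd)).resolve_left fun e => nA (relIndex_eq_one.1 e tS))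
    (F t) ot (hP tT) (by
      rintro ⟨x, i, e⟩
      rw [← e1] at e
      exact nA (inj e ▸ i.1)) with ⟨M, -, i, j⟩ | ⟨g, x, i, e⟩
  · exact ⟨M, i, j⟩
  · obtain ⟨k, rfl⟩ := isConj_iff.1 (K x (isConj_iff.2 ⟨_, e.symm⟩))
    exact absurd (by simpa using (inferInstance : (alternatingGroup (Fin 8)).Normal).conj_mem _ i.1 k⁻¹) nA

end H18.Dm
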