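import Mathlib
import Cfsg.Agent.H01.XH0

/-!
# Groups of large Fischer type: assembly for `J(T) ≅ 2¹¹` (namespace `H18.Fb`)
-/

set_option autoImplicit false
set_option linter.unusedSectionVars false
open Cfsg BG Subgroup H01.XS H01.XF
open H01.XT hiding Hy QS

namespace H18.Fb
universe u

/-- the centralizer of the preimage of the hexacode subspace -/
def EaS : Prop := ∀ {G : Type u} [Group G] [Finite G] {z a : G} {Q Q' : Subgroup G}
  {V : Type u} [AddCommGroup V] [Module (ZMod 2) V] [Finite V] {Γ : Type u} [Group Γ] [Finite Γ]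
  {T : Γ → V →+ V} {d : Γ} {M : Subgroup Γ} {β : V →+ V →+ ZMod 2} {q : V → ZMod 2} {ν : G → V}
  {f : C_[z] →* Γ} {π : G → Γ} {S Y : Subgroup Γ} {L B : AddSubgroup V}
  (s : Br z Q f π ν T d M β q) (_ : H03.PP Q z Q' a) (_ : Nat.card Q' = 8192)
  (_ : Pk T d M β q (ν a) (s.md.push Q') S L B Y),
  (∀ x ∈ C_(s.md.pull B), x * x = 1) ∧ Nat.card C_(s.md.pull B) = 2048 ∧ C_(s.md.pull B) ⊓ Q = s.md.pull B ∧
    (C_(s.md.pull B).subgroupOf C_[z]).map f = Y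

variable {G : Type u} [Group G] [Finite G] {z : G} {Q : Subgroup G}
  {V : Type u} [AddCommGroup V] [Module (ZMod 2) V] [Finite V] {Γ : Type u} [Group Γ] [Finite Γ]
  {T : Γ → V →+ V} {d : Γ} {M : Subgroup Γ} {β : V →+ V →+ ZMod 2} {q : V → ZMod 2} {ν : G → V}
  {f : C_[z] →* Γ} {π : G → Γ}

theorem main (pk : PkS.{u}) (ea : EaS.{u}) (s : Br z Q f π ν T d M β q) {g0 : G} (i0 : g0 * z * g0⁻¹ ∈ Q)
    (n0 : g0 * z * g0⁻¹ ≠ z) (P : Sylow 2 C_[z]) :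
    ∃ A : Subgroup (P : Subgroup C_[z]), maxElementaryAbelianSubgroups 2 (P : Subgroup C_[z]) = {A} ∧
      Nat.card A = 2 ^ 11 ∧ Nat.card ↥(A.map (P : Subgroup C_[z]).subtype ⊓ f.ker) = 2 ^ 7 ∧
      Nat.card ↥((A.map (P : Subgroup C_[z]).subtype).map f) = 16 := by
  have m := s.md
  have l := m.lx
  have fs : Function.Surjective f := fun k => by
    obtain ⟨x, j, e⟩ := s.sur k
    exact ⟨⟨x, j⟩, (s.pf _).trans e⟩
  have mk : ∀ x : C_[z], f x = 1 ↔ x.1 ∈ Q := fun x => by rw [s.pf, s.ker _ x.2]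
  have ck : Nat.card f.ker = 2 ^ 13 := by
    rw [show f.ker = Q.subgroupOf C_[z] from Subgroup.ext mk, Nat.card_congr (subgroupOfEquivOfLe l.le).toEquiv, s.card]
    norm_num
  have kP : f.ker ≤ P := le_sup_right.trans (P.3 (IsPGroup.to_sup_of_normal_right P.2 (pg_of_card ck)) le_sup_left).le
  have pS : IsPGroup 2 ((P : Subgroup C_[z]).map f) := P.2.map f
  have cS : Nat.card ((P : Subgroup C_[z]).map f) = 256 := by
    have a1 := ((P : Subgroup C_[z]).map f).card_mul_index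
    have a2 : ¬ 2 ∣ ((P : Subgroup C_[z]).map f).index := (P.mapSurjective fs).not_dvd_index
    obtain ⟨k, c⟩ := IsPGroup.iff_card.1 pS
    rw [s.gm.cΓ] at a1
    refine Nat.dvd_antisymm ?_ ((Nat.Coprime.pow_left 8 (Nat.prime_two.coprime_iff_not_dvd.2 a2)).dvd_of_dvd_mul_right
      (by rw [a1]; norm_num))
    rw [c] at a1 ⊢
    exact (Nat.Coprime.pow_left k (by norm_num : Nat.Coprime 2 76545)).dvd_of_dvd_mul_right ⟨_, a1.symm⟩
  have h0 := s.pt g0 i0 n0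
  have c1 := h0.fixc pS {w | ∃ g, T g (ν (g0 * z * g0⁻¹)) = w} fun g _ v ⟨k, e⟩ => ⟨g * k, by rw [h0.mul, e]⟩
  rw [Nat.card_coe_set_eq, ← h0.idx, h0.orb.1, Nat.card_coe_set_eq] at c1
  obtain ⟨t, ⟨g, eg⟩, tP⟩ := Set.nonempty_of_ncard_ne_zero fun e => by rw [e] at c1; exact absurd c1 (by decide)
  obtain ⟨g1, j1, rfl⟩ := s.sur g
  have e1 : g1 * g0 * z * (g1 * g0)⁻¹ = g1 * (g0 * z * g0⁻¹) * g1⁻¹ := by group
  rw [s.act g1 j1 _ i0, ← e1] at eg
  have p := H03.ES.pp (g := g1 * g0) ⟨l.aes, l.cent, l.norm⟩ (e1 ▸ l.cE j1 i0) (fun e => n0 (by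
    have e2 : g1 * z * g1⁻¹ = z := by rw [mem_cent1.1 j1, mul_inv_cancel_right]
    rw [e1] at e
    exact mul_left_cancel (mul_right_cancel (e.trans e2.symm)))) (by rw [s.card]; omega)
  have c' := (card_cj (g1 * g0) Q).trans s.card
  obtain ⟨L, B, Y, k⟩ := pk (s.hy p c') ((P : Subgroup C_[z]).map f) (fun x i => by
    show T x _ = _
    rw [eg]; exact tP x i) cS
  obtain ⟨b1, b2, b3, b4⟩ := ea s p c' k
  have zB : z ∈ m.pull B := ⟨l.aes.mem, m.zz ▸ zero_mem _⟩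
  have Cz : C_(m.pull B) ≤ C_[z] := cent_le_cent1 zB
  have AP : C_(m.pull B).subgroupOf C_[z] ≤ P := fun x i => by
    obtain ⟨y, j, e⟩ := k.YS (b4.le ⟨x, i, rfl⟩)
    have := mul_mem j (kP (show y⁻¹ * x ∈ f.ker by rw [MonoidHom.mem_ker, map_mul, map_inv, e, inv_mul_cancel]))
    simpa using this
  obtain ⟨A, hA⟩ : ∃ A : Subgroup (P : Subgroup C_[z]), A = (C_(m.pull B).subgroupOf C_[z]).subgroupOf P := ⟨_, rfl⟩
  have mA : ∀ x, x ∈ A ↔ x.1.1 ∈ C_(m.pull B) := fun x => hA ▸ Iff.rfl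
  have eA : A.map (P : Subgroup C_[z]).subtype = C_(m.pull B).subgroupOf C_[z] := by
    rw [hA, map_subgroupOf_eq_of_le AP]
  have cA : Nat.card A = 2048 := by
    rw [hA, Nat.card_congr (subgroupOfEquivOfLe AP).toEquiv, Nat.card_congr (subgroupOfEquivOfLe Cz).toEquiv, b2]
  have elA : IsElementaryAbelian 2 A := by
    have iv : ∀ x ∈ A, x⁻¹ = x := fun x i =>
      inv_eq_of_mul_eq_one_right (Subtype.ext (Subtype.ext (b1 _ ((mA x).1 i))))
    refine ⟨⟨⟨fun x y => Subtype.ext ?_⟩⟩, fun x i => by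
      rw [pow_two]; exact Subtype.ext (Subtype.ext (b1 _ ((mA x).1 i)))⟩
    have := iv _ (mul_mem x.2 y.2)
    rw [mul_inv_rev, iv _ x.2, iv _ y.2] at this
    exact this.symm
  have un : ∀ A' : Subgroup (P : Subgroup C_[z]), IsElementaryAbelian 2 A' → 2048 ≤ Nat.card A' → A' ≤ A := fun A' e c => by
    obtain ⟨U, hU⟩ : ∃ U, U = A'.map (P : Subgroup C_[z]).subtype := ⟨_, rfl⟩
    have cm : ∀ x ∈ U, ∀ y ∈ U, x.1 * y.1 = y.1 * x.1 := by
      rw [hU]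
      rintro _ ⟨x, i, rfl⟩ _ ⟨y, j, rfl⟩
      exact congrArg (fun w : A' => w.1.1.1) (e.1.1.1 ⟨x, i⟩ ⟨y, j⟩)
    have cU : Nat.card U = Nat.card A' := by rw [hU, card_map_of_injective (subtype_injective _)]
    have a1 := card_inf_mul_relIndex f.ker U
    have a2 : Nat.card ↥(f.ker ⊓ U) ≤ 2 * Nat.card (m.push (U.map C_[z].subtype)) := by
      rw [← m.card_pull, ← card_map_of_injective (K := f.ker ⊓ U) (subtype_injective _)]
      refine card_le_of_le ?_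
      rintro _ ⟨x, i, rfl⟩
      exact ⟨(mk x).1 i.1, x, (mk x).1 i.1, ⟨x, i.2, rfl⟩, rfl⟩
    rw [relIndex_ker] at a1
    have eB := k.un (U.map f) (map_mono (hU ▸ map_subtype_le _)) (by
      rw [hU]
      rintro _ ⟨_, ⟨x, i, rfl⟩, rfl⟩
      rw [← map_mul, ← map_mul, ← pow_two, e.2 x i, map_one, map_one]) (m.push (U.map C_[z].subtype)) (by
      rintro _ ⟨_, i, ⟨x, i', rfl⟩, rfl⟩ _ ⟨_, j, ⟨y, j', rfl⟩, rfl⟩
      exact (s.b _ i _ j).2 (cm x i' y j')) (by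
      rintro _ ⟨x, i, rfl⟩ _ ⟨_, j, ⟨y, j', rfl⟩, rfl⟩
      rw [s.pf, s.act _ x.2 _ j]
      exact congrArg ν (by rw [show x.1 * C_[z].subtype y = y.1 * x.1 from cm x i y j', mul_inv_cancel_right]; rfl)) (by
      nlinarith)
    intro x i
    refine (mA x).2 (mem_cent.2 fun y j => ?_)
    obtain ⟨_, o, ⟨w, o', rfl⟩, ew⟩ := eB.ge j.2
    have xU : x.1 ∈ U := hU ▸ ⟨x, i, rfl⟩
    have a3 : w.1 * x.1.1 = x.1.1 * w.1 := cm w o' _ xU
    rcases m.eq j.1 o ew.symm with r | r <;> rw [r]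
    · exact a3
    · show z * w.1 * _ = _ * (z * w.1)
      rw [mul_assoc, a3, ← mul_assoc, ← mem_cent1.1 x.1.2, mul_assoc]
  refine ⟨A, Set.ext fun A' => ⟨fun i => ?_, ?_⟩, cA, ?_, by rw [eA, b4, k.cY]⟩
  · have a1 := i.2 A elA
    exact Subgroup.eq_of_le_of_card_ge (un A' i.1 (by omega)) a1
  · rintro rfl
    refine ⟨elA, fun A' e => ?_⟩
    by_cases c : 2048 ≤ Nat.card A'
    · exact card_le_of_le (un A' e c)
    · omega
  · rw [eA, show C_(m.pull B).subgroupOf C_[z] ⊓ f.ker = (m.pull B).subgroupOf C_[z] from Subgroup.ext fun x =>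
      ⟨fun i => b3.le ⟨i.1, (mk x).1 i.2⟩, fun i => ⟨(b3.ge i).1, (mk x).2 (b3.ge i).2⟩⟩,
      Nat.card_congr (subgroupOfEquivOfLe (show m.pull B ≤ C_[z] from fun x i => l.le i.1)).toEquiv, m.card_pull, k.cB]
    norm_num

end H18.Fb
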