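import Mathlib
import Cfsg.Agent.H01.XH0

/-!
# The module `Q/Z(Q)` for `2^{1+12}.3.U₄(3).2`: no transvections on `R/⟨a, ωa⟩` (namespace `H18.Fc`)
-/

set_option autoImplicit false
set_option linter.unusedSectionVars false
open H01.XT H01.XF Subgroup Equiv BG

namespace H18.Fc
universe u
variable {V : Type u} [AddCommGroup V] [Module (ZMod 2) V] [Finite V] {Γ : Type u} [Group Γ] [Finite Γ]
  {T : Γ → V →+ V} {d x y g : Γ} {M X : Subgroup Γ} {β : V →+ V →+ ZMod 2} {q : V → ZMod 2} {a u v w : V}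
  {R W : AddSubgroup V} (h : H01.XF.Hy T d M X β q a R)
include h

theorem orb2 : ∃ φ : h.S a →* Perm (Fin 6), (∀ g, φ g = 1 ↔ ∀ r ∈ R, r + T g r ∈ NN (T d) a) ∧
    φ.ker = X.subgroupOf (h.S a) ∧ φ.range = alternatingGroup (Fin 6) := by
  obtain ⟨φ, e⟩ := h.sp
  have l : X ≤ h.S a := h.Xa
  have pk : IsPGroup 2 φ.ker := fun g => ⟨3, Subtype.ext (Subtype.ext (h.fai _ fun v => by
    obtain ⟨⟨g, i⟩, j⟩ := g
    have j := (e _).1 j
    have i : T g a = a := i
    have a1 : ∀ n ∈ NN (T d) a, T g (T g n) = n := by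
      have : T g (T g (T d a)) = T d a := by
        rcases h.gd g a with k | k <;> rw [i] at k <;> simp only [k, map_add, i]
        exact lc0
      exact fun n m => (ex_le (ex_le bot_le (show T g (T g a) = a by rw [i, i])) this :
        NN (T d) a ≤ ((T g).comp (T g)).eqLocus (AddMonoidHom.id V)) m
    have a2 : ∀ r ∈ R, T g (T g (T g (T g r))) = r := fun r m => by
      have := a1 _ (add_mem (j r m) (j _ ((h.st g i).2 r m)))
      simp only [map_add] at this; exact lc this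
    have a3 := a2 _ (h.perp h.iso (by rw [h.main.2.1]; omega) (w := v + T g (T g (T g (T g v)))) fun r m => by
      rw [map_add, AddMonoidHom.add_apply, ← a2 r m, h.βT, h.βT, h.βT, h.βT, a2 r m]; exact lc0)
    simp only [map_add] at a3
    show T (g ^ 2 ^ 3) v = v
    simp only [show 2 ^ 3 = 8 from rfl, pow_succ, pow_zero, one_mul, h.mul]
    exact lc a3))⟩
  obtain ⟨k, ck⟩ := IsPGroup.iff_card.1 pk
  have a1 := φ.ker.card_mul_index
  have a2 := (h.S a).card_mul_index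
  have a3 := φ.range.card_mul_index
  rw [index_ker, ck] at a1
  rw [Nat.card_perm, Nat.card_fin, show Nat.factorial 6 = 720 from rfl] at a3
  rw [h.cΓ] at a2
  have a4 : 1701 ∣ (h.S a).index := by
    have : 9 * 1701 ∣ 9 * (2 ^ k * 80 * (h.S a).index) := by
      rw [show 9 * (2 ^ k * 80 * (h.S a).index) = 2 ^ k * (720 * (h.S a).index) by ring, ← a3, mul_right_comm, ← mul_assoc,
        ← mul_assoc, a1, a2]
      exact Dvd.dvd.mul_right (by norm_num) _
    rw [Nat.mul_dvd_mul_iff_left (by norm_num)] at this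
    exact (Nat.Coprime.mul_right (Nat.Coprime.pow_right k (by norm_num)) (by norm_num)).dvd_of_dvd_mul_left this
  have a5 : (h.S a).index ≤ 2079 := by
    rw [h.idx, ← h.n0 h.ω3 (h.qT d) h.hf]
    exact Set.ncard_le_ncard (by rintro _ ⟨g, rfl⟩; exact ⟨h.nz g h.a0, (h.qT g a).trans h.qa⟩)
  have a6 : (h.S a).index = 1701 := by
    have : (h.S a).index ≠ 0 := index_ne_zero_of_finite
    omega
  rw [a6] at a2
  have l2 : X.subgroupOf (h.S a) ≤ φ.ker := fun x i => (e x).2 fun r j => mem_NN.2 (by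
    rcases h.XR x.1 i r j with o | o <;> rw [o]
    exacts [.inl lc0, .inr (.inl lc0)])
  have a7 := card_dvd_of_le l2
  have cX : Nat.card (X.subgroupOf (h.S a)) = 32 := (Nat.card_congr (subgroupOfEquivOfLe l).toEquiv).trans h.main.2.2.1
  rw [cX, ck] at a7
  have a8 : Nat.card φ.range ∣ 360 := by
    obtain ⟨m, o⟩ := a7
    exact ⟨m, by rw [o] at a1; linarith⟩
  have a9 : 45 ∣ Nat.card φ.range :=
    (Nat.Coprime.pow_right k (by norm_num : Nat.Coprime 45 2)).dvd_of_dvd_mul_left (by rw [a1]; omega)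
  have b1 := s6 _ a8 a9
  rw [b1] at a1 a3
  exact ⟨φ, e, (Subgroup.eq_of_le_of_card_ge l2 (by omega)).symm, Perm.eq_alternatingGroup_of_index_eq_two (by omega)⟩

theorem kx (i : T g a = a) (k : ∀ r ∈ R, r + T g r ∈ NN (T d) a) : g ∈ X := by
  obtain ⟨φ, e, e1, -⟩ := orb2 h
  exact e1.le ((e ⟨g, i⟩).2 k)

theorem c4 : Nat.card (NN (T d) a) = 4 := by
  have c4 : Nat.card (NN (T d) a) ≤ 2 * Nat.card (ex ⊥ a) := card_ex_le
  have c2 := card_ex_le (U := ⊥) (v := a)
  have c5 := h.c4 h.a0 (U := NN (T d) a) (le_ex self_ex) self_ex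
  rw [AddSubgroup.card_bot] at c2
  omega

theorem gN (i : T g a = a) : ∀ n ∈ NN (T d) a, T g n ∈ NN (T d) a :=
  fun _ m => (ex_le (ex_le bot_le (show T g a ∈ NN (T d) a by rw [i]; exact le_ex self_ex)) (show T g (T d a) ∈ NN (T d) a by
    rcases h.gd g a with k | k <;> rw [k, i]
    exacts [self_ex, add_mem self_ex (le_ex self_ex)]) : NN (T d) a ≤ (NN (T d) a).comap (T g)) m

theorem c1 (hv : β a (T d v) = 1) (hx : x ∈ X) (e : x ∈ M) (i : u ∈ R) : T x u = u ↔ β u (T d (v + T x v)) = 0 := by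
  have a1 : β u (T d (v + T x v)) = β (u + T x u) (T d v) := by
    rw [map_add, map_add, map_add, AddMonoidHom.add_apply, ← h.cω e, ← h.βT x (T x u), h.xx hx]
  rw [a1]
  rcases h.XR x hx u i with k | k <;> rw [k]
  · simp [show u + u = 0 from lc0]
  · rw [show u + (u + a) = a from lc0, hv]
    simp [h.a0]

theorem c2 (hv : β a (T d v) = 1) (hx : x ∈ M ⊓ X) (hy : y ∈ M ⊓ X) (k : v + T x v + (v + T y v) ∈ NN (T d) a) : x = y := by
  have a1 := gN h (h.Xa x hx.2) _ k
  simp only [map_add, h.xx hx.2] at a1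
  rw [show T x v + v + (T x v + T x (T y v)) = v + T x (T y v) from lc0, ← h.mul] at a1
  have a2 : T d (v + T (x * y) v) ∈ R := by
    rcases mem_NN.1 a1 with e | e | e | e <;> simp only [e, map_zero, map_add, h.ω2]
    exacts [zero_mem _, h.main.1, add_mem h.main.1 h.aR, add_mem (add_mem h.main.1 h.aR) h.main.1]
  exact mul_left_cancel ((h.X2 x hx.2).trans (h.wn hv (mul_mem hx.2 hy.2) (mul_mem hx.1 hy.1) a2).symm)

theorem cj (hv : β a (T d v) = 1) {P : Subgroup Γ} (l : P ≤ M ⊓ X) (l' : NN (T d) a ≤ W) (k : ∀ x ∈ P, v + T x v ∈ W) :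
    Function.Injective fun p : P × NN (T d) a => (⟨v + T p.1 v + p.2, add_mem (k _ p.1.2) (l' p.2.2)⟩ : W) := by
  rintro ⟨⟨x, i⟩, n, j⟩ ⟨⟨y, i'⟩, m, j'⟩ e
  have e : v + T x v + n = v + T y v + m := congrArg Subtype.val e
  obtain rfl := c2 h hv (l i) (l i') (by rw [show v + T x v + (v + T y v) = n + m from lc e]; exact add_mem j j')
  obtain rfl : n = m := add_left_cancel e
  rfl

/-- a subgroup of `M ⊓ X` fixing `W` pointwise: bound by the perp of `W` in `R` -/
theorem cx {P : Subgroup Γ} {Z : AddSubgroup V} (l : P ≤ M ⊓ X) (lW : W ≤ R) (k : ∀ x ∈ P, ∀ w ∈ W, T x w = w)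
    (l' : NN (T d) a ≤ Z) (pZ : ∀ r ∈ R, (∀ w ∈ W, β w (T d r) = 0) → r ∈ Z) : Nat.card P * 4 ≤ Nat.card Z := by
  obtain ⟨v, v1, hv⟩ := h.v0
  have := Nat.card_le_card_of_injective _ (cj h hv l l' fun x i => pZ _ (h.Xp x (l i).2 v v1) fun w j =>
    (c1 h hv (l i).2 (l i).1 (lW j)).1 (k x i w j))
  rwa [Nat.card_prod, c4 h] at this

theorem mv (i : u ∈ R) (n : u ∉ NN (T d) a) : ∃ x ∈ X, x ∈ M ∧ T x u ≠ u := by
  obtain ⟨v, v1, hv⟩ := h.v0
  obtain ⟨r, j, e⟩ : ∃ r ∈ R, β u (T d r) ≠ 0 := by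
    by_contra! k
    exact n (h.rad i k)
  obtain ⟨⟨⟨x, o⟩, m, o'⟩, k⟩ := ((cj h hv le_rfl h.NR fun x i => h.Xp x i.2 v v1).bijective_of_nat_card_le (by
    rw [Nat.card_prod, c4 h, h.orb2.1, h.main.2.1])).2 ⟨r, j⟩
  have k : v + T x v + m = r := congrArg Subtype.val k
  refine ⟨x, o.2, o.1, fun f => e ?_⟩
  rw [← k, map_add, map_add, (c1 h hv o.2 o.1 i).1 f, h.hN i o', add_zero]

omit h in
theorem c16 {γ : Perm (Fin 6)} (e : γ ^ 2 = 1) (n : γ ≠ 1) (i : γ ∈ alternatingGroup (Fin 6)) :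
    Nat.card (centralizer ({γ} : Set (Perm (Fin 6)))) = 16 := by
  have a1 := Perm.cycleType_of_pow_prime_eq_one e
  have b1 := γ.sum_cycleType
  have b2 : γ.support.card ≤ 6 := γ.support.card_le_univ.trans (by simp)
  have b3 := Perm.sign_of_cycleType γ
  have b4 := mt Perm.card_cycleType_eq_zero.1 n
  rw [Perm.mem_alternatingGroup.1 i] at b3
  rw [Perm.nat_card_centralizer]
  generalize Multiset.card γ.cycleType = k at *
  rw [a1, Multiset.sum_replicate, smul_eq_mul] at b1 b3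
  obtain rfl | rfl | rfl : k = 1 ∨ k = 2 ∨ k = 3 := by omega
  · exact absurd b3 (by decide)
  · rw [a1]; simp [Nat.factorial]
  · exact absurd b3 (by decide)

/-- no transvections -/
theorem nt (i : T g a = a) (l : W ≤ R) (l' : NN (T d) a ≤ W) (c : 32 ≤ Nat.card W)
    (k : ∀ r ∈ W, r + T g r ∈ NN (T d) a) : g ∈ X := by
  by_contra n
  obtain ⟨φ, e, e1, e2⟩ := orb2 h
  have cR := h.main.2.1
  obtain ⟨r0, i0, n0⟩ : ∃ r ∈ R, r + T g r ∉ NN (T d) a := by
    by_contra! o
    exact n (kx h i o)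
  have gR := (h.st g i).2
  have top : ∀ r ∈ R, r ∉ W → ∀ t ∈ R, t ∈ ex W r := fun r j o => by
    have := card_ex o
    exact (AddSubgroup.eq_of_le_of_card_ge (ex_le l j) (by omega)).ge
  obtain ⟨c0, hc⟩ : ∃ c0, c0 = r0 + T g r0 := ⟨_, rfl⟩
  have cR0 : c0 ∈ R := hc ▸ add_mem i0 (gR _ i0)
  have r0W : r0 ∉ W := fun o => n0 (k _ o)
  rw [← hc] at n0
  have k' : ∀ r ∈ R, r ∉ W → r + T g r + c0 ∈ NN (T d) a := fun r j o => by
    have := k _ ((top r0 i0 r0W r j).resolve_left o)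
    rw [map_add] at this
    rwa [hc, show r + T g r + (r0 + T g r0) = r + r0 + (T g r + T g r0) from lc0]
  have p1 : ∀ w ∈ W, β w (T d c0) = 0 := fun w j => by
    have a1 := h.hg (g := g) (l j) i0
    have a2 := h.hN (gR _ i0) (k w j)
    rw [h.hs (gR _ i0) (h.NR (k w j)), map_add, AddMonoidHom.add_apply, a1] at a2
    rw [hc, map_add, map_add]; exact lc a2
  have p2 : ∀ r ∈ R, β r (T d c0) = 0 → r ∈ W := fun r j o => by
    by_contra m
    exact n0 (h.rad cR0 fun t q => (h.hs cR0 q).trans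
      ((ex_le (fun w j => p1 w j) o : ex W r ≤ (β.flip (T d c0)).ker) (top r j m t q)))
  have cW := p2 _ cR0 (h.ha cR0)
  have γ2 : φ ⟨g, i⟩ ^ 2 = 1 := by
    rw [← map_pow, e]
    intro r j
    show r + T (g ^ 2) r ∈ _
    rw [pow_two, h.mul]
    by_cases m : r ∈ W
    · have := add_mem (k r m) (gN h i _ (k r m))
      rwa [map_add, show r + T g r + (T g r + T g (T g r)) = r + T g (T g r) from lc0] at this
    · have := add_mem (add_mem (k' r j m) (gN h i _ (k' r j m))) (k _ cW)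
      rwa [map_add, map_add, show r + T g r + c0 + (T g r + T g (T g r) + T g c0) + (c0 + T g c0) = r + T g (T g r) from lc0]
        at this
  have c16 := c16 γ2 (fun o => n (e1.le o)) (e2.le ⟨_, rfl⟩)
  have lP : ((h.S c0).subgroupOf (h.S a)).map φ ≤ centralizer {φ ⟨g, i⟩} := by
    rintro _ ⟨⟨y, ya⟩, yc, rfl⟩
    have yc : T y c0 = c0 := yc
    have yR := (h.st y ya).2
    rw [mem_centralizer_singleton_iff, ← map_mul, ← map_mul, ← inv_mul_eq_one, ← map_inv, ← map_mul, e]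
    intro r j
    have a1 : T y (T g r) + T g (T y r) ∈ NN (T d) a := by
      have a2 := h.hg (g := y) j cR0
      rw [yc] at a2
      by_cases m : r ∈ W
      · have := add_mem (gN h ya _ (k r m)) (k _ (p2 _ (yR r j) (a2.trans (p1 r m))))
        rwa [map_add, show T y r + T y (T g r) + (T y r + T g (T y r)) = T y (T g r) + T g (T y r) from lc0] at this
      · have := add_mem (gN h ya _ (k' r j m)) (k' _ (yR r j) fun o => m (p2 r j (a2.symm.trans (p1 _ o))))
        rwa [map_add, map_add, yc, show T y r + T y (T g r) + c0 + (T y r + T g (T y r) + c0) =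
          T y (T g r) + T g (T y r) from lc0] at this
    have := gN h (g := (y * g)⁻¹) (inv_mem (mul_mem ya (show g ∈ h.S a from i))) _ a1
    rwa [map_add, ← h.mul y g, ← h.mul g y, h.li, ← h.mul] at this
  have a1 := card_inf_mul_relIndex φ.ker ((h.S c0).subgroupOf (h.S a))
  have a2 := card_dvd_of_le lP
  have a3 := card_dvd_of_le (e2 ▸ map_le_range φ ((h.S c0).subgroupOf (h.S a)))
  have cK : Nat.card φ.ker = 32 := by
    rw [e1]; exact (Nat.card_congr (subgroupOfEquivOfLe h.orb.2.1).toEquiv).trans h.main.2.2.1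
  have a4 : Nat.card ↥(φ.ker ⊓ (h.S c0).subgroupOf (h.S a)) ≤ 16 := by
    obtain ⟨x, o, -, m⟩ := mv h cR0 n0
    obtain ⟨t, et⟩ := card_dvd_of_le (inf_le_left : φ.ker ⊓ (h.S c0).subgroupOf (h.S a) ≤ φ.ker)
    have : t ≠ 1 := fun f => m ((Subgroup.eq_of_le_of_card_ge (inf_le_left : φ.ker ⊓ (h.S c0).subgroupOf (h.S a) ≤ φ.ker)
      (by rw [et, f, mul_one])).ge (e1.ge (show (⟨x, h.Xa x o⟩ : h.S a) ∈ _ from o))).2
    rw [cK] at et
    obtain _ | _ | t := t
    · omega
    · omega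
    · nlinarith
  rw [relIndex_ker] at a1
  rw [c16] at a2
  rw [nat_card_alternatingGroup, Nat.card_fin, show Nat.factorial 6 / 2 = 360 from rfl] at a3
  have a5 := Nat.le_of_dvd (by norm_num) ((Nat.dvd_gcd a2 a3).trans (by norm_num : Nat.gcd 16 360 ∣ 8))
  have a6 := ((h.S c0).subgroupOf (h.S a)).card_mul_index
  have a7 := (h.S a).card_mul_index
  rw [h.orb.1, h.cΓ] at a7
  have a8 : ((h.S c0).subgroupOf (h.S a)).index ≤ 64 := by
    let _ : MulAction (h.S a) V := { smul := fun g v => T g v, one_smul := h.one, mul_smul := fun x y => h.mul x y }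
    rw [show (h.S c0).subgroupOf (h.S a) = MulAction.stabilizer (h.S a) c0 from rfl, MulAction.index_stabilizer, ← cR]
    exact Set.ncard_le_ncard (s := MulAction.orbit _ c0) (t := (R : Set V)) (by rintro _ ⟨y, rfl⟩; exact (h.st y y.2).2 _ cR0)
  nlinarith

end H18.Fc
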