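import Mathlib
import Cfsg.Agent.H18.FcA

/-!
# The hexacode subspace: interface of the construction (namespace `H18.Fc`)
-/

set_option autoImplicit false
open H01.XT H01.XF Subgroup

namespace H18.Fc
universe u
variable {V : Type u} [AddCommGroup V] [Module (ZMod 2) V] [Finite V] {Γ : Type u} [Group Γ] [Finite Γ]

structure Cn (T : Γ → V →+ V) (d : Γ) (M X : Subgroup Γ) (β : V →+ V →+ ZMod 2) (q : V → ZMod 2) (a : V) (R : AddSubgroup V)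
    (S : Subgroup Γ) (L B : AddSubgroup V) (Y : Subgroup Γ) : Prop where
  Sa : ∀ g ∈ S, T g a = a
  cS : Nat.card S = 256
  XS : X ≤ S
  NL : NN (T d) a ≤ L
  LR : L ≤ R
  LB : L ≤ B
  cL : Nat.card L = 16
  pL : ∀ r ∈ R, r ∈ L ↔ ∀ l ∈ L, β l (T d r) = 0
  mB : ∀ v, v ∈ B ↔ ∃ l ∈ L, ∃ l' ∈ L, l + T d l' = v
  cB : Nat.card B = 64
  qB : ∀ v ∈ B, q v = 0
  iB : ∀ u ∈ B, ∀ v ∈ B, β u v = 0
  Bω : ∀ v ∈ B, T d v ∈ B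
  mY : ∀ g, g ∈ Y ↔ ∀ v ∈ L, T g v = v
  YB : ∀ g ∈ Y, ∀ v ∈ B, T g v = v
  YS : Y ≤ S
  YM : Y ≤ M
  cY : Nat.card Y = 16
  cYX : Nat.card ↥(Y ⊓ X) ≤ 4
  Y2 : ∀ g ∈ Y, g * g = 1

end H18.Fc
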