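import Mathlib
import Cfsg.Agent.H03.FT2
import Cfsg.Agent.H20.XhE
import Cfsg.Agent.H18.FcA

/-!
# Groups of large Fischer type: orders of the local subgroups of `N(J(T))` (namespace `H18.Fd`)
-/

set_option autoImplicit false
set_option linter.unusedSectionVars false
open Cfsg BG Subgroup H01.XS H01.XF
open H01.XT hiding Hy QS

namespace H18.Fd
universe u
variable {G : Type u} [Group G] [Finite G] {z g : G} {Q : Subgroup G}
  {V : Type u} [AddCommGroup V] [Module (ZMod 2) V] [Finite V] {Γ : Type u} [Group Γ] [Finite Γ]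
  {T : Γ → V →+ V} {d : Γ} {M X S Y : Subgroup Γ} {β : V →+ V →+ ZMod 2} {q : V → ZMod 2} {ν : G → V}
  {f : C_[z] →* Γ} {π : G → Γ} {a : V} {R L B : AddSubgroup V}

theorem cnt {W : Type*} [AddCommGroup W] (φ : V →+ W) (U : AddSubgroup V) :
    Nat.card ↥(φ.ker ⊓ U) * Nat.card (U.map φ) = Nat.card U := by
  rw [← AddSubgroup.relIndex_ker, ← AddSubgroup.inf_relIndex_right, ← ((φ.ker ⊓ U).addSubgroupOf U).card_mul_index,
    Nat.card_congr (AddSubgroup.addSubgroupOfEquivOfLe inf_le_right).toEquiv]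
  rfl

theorem k256 (h : Hy T d M X β q a R) {x : Γ} (i : x ∈ X) (j : x ∈ M) :
    256 ≤ Nat.card (AddMonoidHom.id V + T x).ker := by
  have a1 := cnt ((β a).prod ((β a).comp (T d))) ⊤
  have a2 := cnt (AddMonoidHom.id V + T x) ((β a).prod ((β a).comp (T d))).ker
  have a3 := AddSubgroup.card_le_of_le (le_top : (⊤ : AddSubgroup V).map ((β a).prod ((β a).comp (T d))) ≤ ⊤)
  have a4 := AddSubgroup.card_le_of_le (show (((β a).prod ((β a).comp (T d))).ker).map (AddMonoidHom.id V + T x) ≤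
      H01.XF.NN (T d) a by
    rintro _ ⟨v, o, rfl⟩
    have o1 : β a v = 0 := congrArg Prod.fst o
    have o2 : β a (T d v) = 0 := congrArg Prod.snd o
    refine h.main.2.2.2 _ (h.Xp x i v o1) ?_
    show T d (v + T x v) ∈ R
    rw [map_add, ← h.cω j]; exact h.Xp x i _ o2)
  have a5 := AddSubgroup.card_le_of_le
    (inf_le_left : (AddMonoidHom.id V + T x).ker ⊓ ((β a).prod ((β a).comp (T d))).ker ≤ _)
  rw [inf_top_eq, AddSubgroup.card_top, h.card] at a1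
  rw [AddSubgroup.card_top, Nat.card_prod, Nat.card_zmod] at a3
  rw [H18.Fc.c4 h] at a4
  nlinarith

theorem no7 (h : Hy T d M X β q a R) {a' : V} {R' : AddSubgroup V} (k : Pk T d M β q a' R' S L B Y)
    (oc : ∀ x ∈ M, ∀ y ∈ M, x * x = 1 → y * y = 1 → x ≠ 1 → y ≠ 1 → ∃ g, g * x * g⁻¹ = y) {η : Γ} (o : orderOf η = 7)
    (n : η ∈ N_(Y)) : False := by
  have : Fact (Nat.Prime 7) := ⟨by norm_num⟩
  have : Fact (Nat.Prime 3) := ⟨by norm_num⟩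
  have p7 : IsPGroup 7 (zpowers η) := pg_of_card_eq (by rw [Nat.card_zpowers, o])
  obtain ⟨x, xY, x1, c⟩ : ∃ x ∈ Y, x ≠ 1 ∧ η * x = x * η := by
    have nY := le_norm_iff.1 (zpowers_le.2 n)
    let _ : MulAction (zpowers η) ↥((Y : Set Γ) \ {1}) :=
      { smul := fun g x => ⟨g * x * g⁻¹, nY g g.2 x x.2.1, fun e => x.2.2 (by simpa using e)⟩
        one_smul := fun x => Subtype.ext (show (1 : Γ) * x * (1 : Γ)⁻¹ = x by simp)
        mul_smul := fun g k x => Subtype.ext (show (g * k : Γ) * x * (g * k : Γ)⁻¹ = (g : Γ) * ((k : Γ) * x * (k : Γ)⁻¹) * (g : Γ)⁻¹ by group) }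
    obtain ⟨x, e⟩ := p7.nonempty_fixed_point_of_prime_not_dvd_card ↥((Y : Set Γ) \ {1}) (by
      rw [Nat.card_coe_set_eq, Set.ncard_sdiff_singleton_of_mem (one_mem Y), ← Nat.card_coe_set_eq]
      simp only [SetLike.coe_sort_coe, k.cY]; decide)
    exact ⟨x, x.2.1, x.2.2, mul_inv_eq_iff_eq_mul.1 (congrArg Subtype.val (e ⟨η, mem_zpowers η⟩))⟩
  have iso := H03.FT.isoB h k
  obtain ⟨I, hI⟩ : ∃ I, I = (⊤ : AddSubgroup V).map (AddMonoidHom.id V + T x) := ⟨_, rfl⟩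
  have mI : ∀ v, v ∈ I ↔ ∃ w, w + T x w = v := fun v => hI ▸ ⟨fun ⟨w, _, e⟩ => ⟨w, e⟩, fun ⟨w, e⟩ => ⟨w, trivial, e⟩⟩
  have IB : I ≤ B := fun v i => by
    obtain ⟨w, rfl⟩ := (mI v).1 i
    exact h.perp iso (by rw [k.cB]; omega) fun u j => (h.sym _ _).trans (h.fx (k.YB x xY u j) w)
  have inv : ∀ y, y * x = x * y → ∀ g ∈ zpowers y, ∀ v ∈ (I : Set V), T g v ∈ (I : Set V) := fun y e g ⟨m, em⟩ v i => by
    obtain ⟨w, rfl⟩ := (mI v).1 i
    have : g * x = x * g := em ▸ ((show Commute y x from e).zpow_left m).eq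
    exact (mI _).2 ⟨T g w, by rw [map_add, ← h.mul, ← h.mul, this]⟩
  have one : ∀ y, (∀ v ∈ I, T y v = v → v = 0) → Nat.card {v | v ∈ (I : Set V) ∧ ∀ g ∈ zpowers y, T g v = v} = 1 :=
    fun y e => by
      rw [show {v | v ∈ (I : Set V) ∧ ∀ g ∈ zpowers y, T g v = v} = {0} from Set.ext fun v =>
        ⟨fun i => e v i.1 (i.2 y (mem_zpowers y)), by rintro rfl; exact ⟨zero_mem I, fun _ _ => map_zero _⟩⟩]
      simp
  have c7 := h.fixc p7 I (inv η c)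
  have c3 := h.fixc (pg_of_card_eq (A := zpowers d) (by rw [Nat.card_zpowers, H18.Fa.od h])) I (inv d (h.Md x (k.YM xY)).symm)
  rw [one η fun v i e => by
    by_contra n0
    have a1 := (h.S v).orderOf_dvd_natCard (show η ∈ h.S v from e)
    rw [o] at a1
    by_cases j : ∃ g, T g a = v
    · obtain ⟨g, rfl⟩ := j
      have a2 := (h.S (T g a)).card_mul_index
      rw [h.idx, show {w | ∃ k, T k (T g a) = w} = {w | ∃ k, T k a = w} from Set.ext fun w =>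
        ⟨fun ⟨k, e⟩ => ⟨k * g, by rw [h.mul, e]⟩, fun ⟨k, e⟩ => ⟨k * g⁻¹, by rw [h.mul, h.li, e]⟩⟩, ← h.idx, h.orb.1,
        h.cΓ] at a2
      omega
    · rw [(h.cards n0 (k.qB v (IB i)) j).1] at a1; omega] at c7
  rw [one d fun v _ e => by
    have := h.hf v
    rw [e, e] at this; exact lc this] at c3
  obtain ⟨x0, i0, j0, n0⟩ := h.ex2 {1} (by simp)
  obtain ⟨g, e⟩ := oc x (k.YM xY) x0 j0 (k.Y2 x xY) (h.X2 x0 i0) x1 (by simpa using n0)
  have a1 := k256 h i0 j0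
  have a2 : Nat.card (AddMonoidHom.id V + T x0).ker ≤ Nat.card (AddMonoidHom.id V + T x).ker :=
    Nat.card_le_card_of_injective (fun v => ⟨T g⁻¹ v, by
      have : v.1 + T x0 v = 0 := v.2
      show T g⁻¹ v + T x (T g⁻¹ v) = 0
      rw [← h.mul, show x * g⁻¹ = g⁻¹ * x0 by rw [← e]; group, h.mul, ← map_add, this, map_zero]⟩)
      fun v w e => Subtype.ext (h.inj _ (congrArg Subtype.val e))
  have a3 := cnt (AddMonoidHom.id V + T x) ⊤
  rw [inf_top_eq, AddSubgroup.card_top, h.card, ← hI] at a3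
  have a4 : Nat.card I ≠ 1 := fun e => x1 (h.fai x fun v => by
    have : v + T x v ∈ I := (mI _).2 ⟨v, rfl⟩
    rw [AddSubgroup.card_eq_one.1 e] at this
    exact lc (show v + T x v = 0 from this))
  have a5 : Nat.card I ≤ 16 := by nlinarith
  replace c7 : Nat.card I % 7 = 1 := c7
  replace c3 : Nat.card I % 3 = 1 := c3
  omega

theorem cN (s : Br z Q f π ν T d M β q) (i0 : g * z * g⁻¹ ∈ Q) (n0 : g * z * g⁻¹ ≠ z)
    (k : Pk T d M β q (ν (g * z * g⁻¹)) (s.md.push (cj g Q)) S L B Y)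
    (oc : ∀ x ∈ M, ∀ y ∈ M, x * x = 1 → y * y = 1 → x ≠ 1 → y ≠ 1 → ∃ g, g * x * g⁻¹ = y) :
    Nat.card (N_(C_(s.md.pull B)) ⊓ centralizer {z} : Subgroup G) ∣ 2 ^ 21 * 3 ^ 7 * 5 := by
  have : Fact (Nat.Prime 7) := ⟨by norm_num⟩
  obtain ⟨-, -, -, b4⟩ := H20.XhE.ea s (H03.FT.pp s i0 n0) ((card_cj _ _).trans s.card) k
  have l := s.md.lx
  have Cz : C_(s.md.pull B) ≤ C_[z] := cent_le_cent1 ⟨l.aes.mem, s.md.zz ▸ zero_mem _⟩
  have a1 := H20.XhE.cnt s (U := C_[z]) le_rfl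
  rw [inf_eq_left.2 l.le, s.card, subgroupOf_self, show (⊤ : Subgroup C_[z]).map f = ⊤ from eq_top_iff.2 fun k _ => by
    obtain ⟨x, j, e⟩ := s.sur k
    exact ⟨⟨x, j⟩, trivial, (s.pf _).trans e⟩, card_top, s.gm.cΓ] at a1
  have a2 := card_dvd_of_le (inf_le_right : N_(C_(s.md.pull B)) ⊓ C_[z] ≤ C_[z])
  rw [← a1, show 8192 * 19595520 = 7 * (2 ^ 21 * 3 ^ 7 * 5) by norm_num] at a2
  refine (Nat.Coprime.symm ((Nat.Prime.coprime_iff_not_dvd (by norm_num)).2 fun e => ?_)).dvd_of_dvd_mul_left a2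
  obtain ⟨⟨y, yN, yz⟩, o⟩ := exists_prime_orderOf_dvd_card' 7 e
  rw [← Subgroup.orderOf_coe] at o
  have o : orderOf y = 7 := o
  refine no7 (s.pt g i0 n0) k oc (η := f ⟨y, yz⟩) (orderOf_eq_prime (by
    rw [← map_pow, show (⟨y, yz⟩ : C_[z]) ^ 7 = 1 from Subtype.ext (o ▸ pow_orderOf_eq_one y), map_one]) fun e => ?_)
    (mem_norm_of_cj_le ?_)
  · have := Q.orderOf_dvd_natCard ((s.ker y yz).1 ((s.pf ⟨y, yz⟩).symm.trans e))
    rw [o, s.card] at this; omega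
  · rw [← b4]
    rintro _ ⟨_, ⟨x, i, rfl⟩, rfl⟩
    exact ⟨⟨y, yz⟩ * x * ⟨y, yz⟩⁻¹, le_norm_iff.1 le_rfl y yN x i, by simp⟩

theorem c19 (s : Br z Q f π ν T d M β q) (i0 : g * z * g⁻¹ ∈ Q) (n0 : g * z * g⁻¹ ≠ z) {A : Subgroup G}
    (Az : A ≤ C_[z]) (SY : ∀ X : Subgroup G, A ≤ X → 2 ^ 19 ∣ Nat.card X → 2 ^ 19 ∣ Nat.card ↥(N_(A) ⊓ X))
    {t : G} (tQ : t ∈ Q) (t2 : t * t = 1) (At : A ≤ C_[t]) (t1 : t ≠ 1) (tz : ¬ IsConj z t) :
    2 ^ 19 ∣ Nat.card (N_(A) ⊓ centralizer {z} ⊓ centralizer {t} : Subgroup G) ∧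
      ¬ 2 ^ 20 ∣ Nat.card (N_(A) ⊓ centralizer {z} ⊓ centralizer {t} : Subgroup G) := by
  have h := s.pt g i0 n0
  have m := s.md
  have t0 : ν t ≠ 0 := fun e => ((m.ker t tQ).1 e).elim t1 fun e => tz (e ▸ IsConj.refl _)
  have a1 := H20.XhE.cnt s (U := C_[z] ⊓ C_[t]) inf_le_left
  have a2 := cnt (β (ν t)) ⊤
  obtain ⟨e0, he⟩ := not_forall.1 (mt (h.nd _) t0)
  rw [inf_top_eq, AddSubgroup.card_top, h.card, show (⊤ : AddSubgroup V).map (β (ν t)) = ⊤ from eq_top_iff.2 fun c _ => by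
    rcases z2 c with rfl | rfl
    exacts [zero_mem _, ⟨e0, trivial, z2' _ he⟩], AddSubgroup.card_top, Nat.card_zmod] at a2
  rw [show Q ⊓ (C_[z] ⊓ C_[t]) = m.pull (β (ν t)).ker from Subgroup.ext fun x =>
      ⟨fun i => ⟨i.1, (s.b t tQ x i.1).2 (mem_cent1.1 i.2.2).symm⟩,
        fun i => ⟨i.1, m.lx.le i.1, mem_cent1.2 ((s.b t tQ x i.1).1 i.2).symm⟩⟩, m.card_pull,
    show ((C_[z] ⊓ C_[t]).subgroupOf C_[z]).map f = h.S (ν t) from le_antisymm (by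
      rintro _ ⟨x, i, rfl⟩
      show T _ _ = _
      rw [s.pf, s.act _ x.2 t tQ, show x.1 * t = t * x.1 from mem_cent1.1 i.2, mul_inv_cancel_right]) fun y i => by
        obtain ⟨x, j, rfl⟩ := s.sur y
        obtain ⟨k, o, e, e'⟩ := s.adj j tQ tQ t2 t0 i
        exact ⟨⟨k, o⟩, ⟨o, mem_cent1.2 (mul_inv_eq_iff_eq_mul.1 e)⟩, (s.pf _).trans e'⟩,
    (h.cards t0 ((s.sq t tQ).2 t2) fun ⟨y, e⟩ => by
      obtain ⟨x, j, rfl⟩ := s.sur y
      obtain ⟨k, -, e, -⟩ := s.adj j i0 tQ t2 t0 e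
      exact tz (isConj_iff.2 ⟨k * g, by rw [← e]; group⟩)).1] at a1
  have a3 : Nat.card ↥(C_[z] ⊓ C_[t]) = 2 ^ 19 * 405 := by omega
  rw [inf_assoc]
  refine ⟨SY _ (le_inf Az At) (a3 ▸ dvd_mul_right _ _), fun e => ?_⟩
  have := e.trans (card_dvd_of_le (inf_le_right : N_(A) ⊓ (C_[z] ⊓ C_[t]) ≤ _))
  rw [a3] at this
  norm_num at this

end H18.Fd
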