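import Mathlib
import Cfsg.Agent.H23.K0
import Cfsg.Agent.H18.JE
import Cfsg.Agent.H01.Basic

/-!
# Groups of Janko-four type: a complement to `2¹¹` in `N(A) ⊓ C(z)` (namespace `H18.KW`)
-/

set_option autoImplicit false
set_option linter.unusedSectionVars false
open Cfsg BG Subgroup H01.XS Cfsg.Agent.H06.J Cfsg.Agent.H23.K
open H01.XT hiding Hy QS

namespace H18.KW
universe u
variable {G : Type u} [Group G] [Finite G] {z : G} {Q : Subgroup G}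
  {V : Type u} [AddCommGroup V] [Module (ZMod 2) V] [Finite V] {Γ : Type u} [Group Γ] [Finite Γ]
  {T : Γ → V →+ V} {d : Γ} {M K Y L : Subgroup Γ} {β : V →+ V →+ ZMod 2} {q : V → ZMod 2} {ν : G → V}
  {f : C_[z] →* Γ} {π : G → Γ} {B B' : AddSubgroup V} {A : Subgroup G} {δ : G}

theorem dd (s : Bj z Q f π ν T d M β q) : d ≠ d⁻¹ := fun e => by
  have h := s.gm
  have e1 : d = 1 := by
    have := h.d3
    rwa [show d * d = 1 from mul_eq_one_iff_eq_inv.2 e, mul_one] at this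
  have e2 : ∀ v : V, v = 0 := fun v => by
    have := h.hf v
    rw [e1, h.one, h.one] at this
    exact lc this
  have : Subsingleton V := ⟨fun a b => (e2 a).trans (e2 b).symm⟩
  have c := h.card
  rw [Nat.card_of_subsingleton (0 : V)] at c
  omega

theorem qn (s : Bj z Q f π ν T d M β q) (δz : δ ∈ C_[z]) (δd : π δ = d) {x : G} (i : x ∈ Q)
    (e : x * δ * x⁻¹ = δ ∨ x * δ * x⁻¹ = δ⁻¹) : x = 1 ∨ x = z := by
  have l := s.md.lx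
  have xz := l.le i
  rcases e with e | e
  · exact JE.cq s δz δd i (mem_cent1.2 (mul_inv_eq_iff_eq_mul.1 e))
  · have := congrArg π e
    rw [JE.mul s _ (mul_mem xz δz) _ (inv_mem xz), JE.mul s _ xz _ δz, JE.inv s _ xz, JE.inv s _ δz, (s.ker x xz).2 i, δd,
      one_mul, inv_one, mul_one] at this
    exact absurd this (dd s)

theorem w2 (s : Bj z Q f π ν T d M β q) (c : Cx s K Y B A δ) (c2 : C2 s Y B A δ) (g : Sg T d M K Y L q B B') (L1 : Subgroup G)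
    (a1 : L1 ≤ C_[z]) (a2 : ∀ l ∈ L1, π l ∈ L) (a3 : ∀ l ∈ L1, l * δ * l⁻¹ = δ ∨ l * δ * l⁻¹ = δ⁻¹) (a4 : z ∉ L1)
    (a5 : Nat.card L1 = 2160) : ∃ D ≤ N_(A) ⊓ C_[z], D ⊓ A = ⊥ ∧ Nat.card D = 138240 := by
  have h := s.gm
  have l := s.md.lx
  have mB : ∀ {W : AddSubgroup V} {x : G}, x ∈ s.md.pull W ↔ x ∈ Q ∧ ν x ∈ W := Iff.rfl
  have βB : ∀ u ∈ B', ∀ v ∈ B', β u v = 0 := fun u i v j => by
    have := h.pol u v
    rw [g.qB _ (add_mem i j), g.qB u i, g.qB v j, zero_add, zero_add] at this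
    exact this.symm
  obtain ⟨P, hP⟩ : ∃ P : Subgroup G, ∀ x, x ∈ P ↔ x ∈ Q ∧ ν x ∈ B' := ⟨s.md.pull B', fun _ => Iff.rfl⟩
  have cm : ∀ x ∈ P, ∀ y ∈ P, x * y = y * x := fun x i y j =>
    ((s.b x ((hP x).1 i).1 y ((hP y).1 j).1).1 (βB _ ((hP x).1 i).2 _ ((hP y).1 j).2)).eq
  have sq : ∀ x ∈ P, x * x = 1 := fun x i => (s.sq x ((hP x).1 i).1).1 (g.qB _ ((hP x).1 i).2)
  have cj : ∀ a ∈ C_[z], π a ∈ L → ∀ x ∈ P, a * x * a⁻¹ ∈ P := fun a i j x k =>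
    (hP _).2 ⟨l.cE i ((hP x).1 k).1, s.act a i x ((hP x).1 k).1 ▸ g.sB' _ j _ ((hP x).1 k).2⟩
  have cδ : ∀ x ∈ P, δ * x * δ⁻¹ ∈ P := cj δ c.δz (c.δd ▸ g.dL)
  have zP : z ∈ P := (hP z).2 ⟨l.aes.mem, s.md.zz ▸ zero_mem B'⟩
  obtain ⟨n, hn⟩ : ∃ n : G → G, ∀ x, n x = x * (δ * x * δ⁻¹) * (δ * (δ * x * δ⁻¹) * δ⁻¹) := ⟨_, fun _ => rfl⟩
  have nm : ∀ x ∈ P, ∀ y ∈ P, n (x * y) = n x * n y := fun x i y j => by
    have e1 := cm y j _ (cδ x i)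
    have e2 := cm _ (cδ y j) _ (cδ _ (cδ x i))
    have e3 := cm y j _ (cδ _ (cδ x i))
    calc n (x * y) = x * (y * (δ * x * δ⁻¹)) * (δ * y * δ⁻¹ * (δ * (δ * x * δ⁻¹) * δ⁻¹)) * (δ * (δ * y * δ⁻¹) * δ⁻¹) := by
          rw [hn]; group
      _ = x * (δ * x * δ⁻¹) * (y * (δ * (δ * x * δ⁻¹) * δ⁻¹)) * (δ * y * δ⁻¹) * (δ * (δ * y * δ⁻¹) * δ⁻¹) := by
          rw [e1, e2]; simp only [mul_assoc]
      _ = n x * n y := by rw [e3, hn, hn]; simp only [mul_assoc]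
  have nz : n z = z := by
    have e : δ * z * δ⁻¹ = z := by rw [mem_cent1.1 c.δz, mul_inv_cancel_right]
    rw [hn, e, e, l.zz, one_mul]
  have nk : ∀ x ∈ P, n x = 1 ∨ n x = z := fun x i => by
    have b0 := ((hP _).1 i).1
    have b1 := ((hP _).1 (cδ x i)).1
    have b2 := ((hP _).1 (cδ _ (cδ x i))).1
    rw [hn]
    refine (s.md.ker _ (mul_mem (mul_mem b0 b1) b2)).1 ?_
    rw [s.md.mul _ (mul_mem b0 b1) _ b2, s.md.mul _ b0 _ b1, ← s.act δ c.δz _ b1, ← s.act δ c.δz _ b0, c.δd]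
    exact h.hf _
  let R : Subgroup G :=
    { carrier := {x | x ∈ P ∧ n x = 1}
      mul_mem' := fun {x y} i j => ⟨mul_mem i.1 j.1, by rw [nm x i.1 y j.1, i.2, j.2, one_mul]⟩
      one_mem' := ⟨one_mem _, by rw [hn]; group⟩
      inv_mem' := fun {x} i => by rw [show x⁻¹ = x from inv_eq_of_mul_eq_one_right (sq x i.1)]; exact i }
  have mR : ∀ x, x ∈ R ↔ x ∈ P ∧ n x = 1 := fun _ => Iff.rfl
  have zR : z ∉ R := fun i => l.z1 (nz.symm.trans i.2)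
  have cR : Nat.card R = 64 := by
    rw [← g.cB]
    refine Nat.card_congr (Equiv.ofBijective (fun x => ⟨ν x, ((hP _).1 x.2.1).2⟩) ⟨fun x y e => ?_, fun v => ?_⟩)
    · rcases s.md.eq ((hP _).1 x.2.1).1 ((hP _).1 y.2.1).1 (congrArg Subtype.val e) with r | r
      · exact Subtype.ext r
      · exact absurd (show z ∈ R from (eq_mul_inv_of_mul_eq r.symm) ▸ mul_mem x.2 (inv_mem y.2)) zR
    · obtain ⟨x, i, e⟩ := s.md.sur v
      have j : x ∈ P := (hP x).2 ⟨i, e ▸ v.2⟩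
      rcases nk x j with r | r
      · exact ⟨⟨x, j, r⟩, Subtype.ext e⟩
      · exact ⟨⟨z * x, mul_mem zP j, by rw [nm z zP x j, nz, r, l.zz]⟩, Subtype.ext (by
          show ν (z * x) = v
          rw [s.md.mul _ l.aes.mem _ i, s.md.zz, zero_add, e])⟩
  have nR : L1 ≤ N_(R) := le_norm_iff.2 fun a i x j => ⟨cj a (a1 i) (a2 a i) x j.1, by
    have e0 : n (a * x * a⁻¹) = a * (x * ((a⁻¹ * δ * a⁻¹⁻¹) * x * (a⁻¹ * δ * a⁻¹⁻¹)⁻¹) *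
        ((a⁻¹ * δ * a⁻¹⁻¹) * ((a⁻¹ * δ * a⁻¹⁻¹) * x * (a⁻¹ * δ * a⁻¹⁻¹)⁻¹) * (a⁻¹ * δ * a⁻¹⁻¹)⁻¹)) * a⁻¹ := by rw [hn]; group
    have e1 := j.2
    rw [hn] at e1
    rw [e0]
    rcases a3 _ (inv_mem i) with r | r <;> rw [r]
    · rw [e1]; group
    · have e2 : δ⁻¹ = δ * δ := inv_eq_of_mul_eq_one_right (by rw [← c.δ3, pow_three])
      have e3 : δ⁻¹ * x * δ⁻¹⁻¹ = δ * (δ * x * δ⁻¹) * δ⁻¹ := by rw [congrArg (fun t => t * x * t⁻¹) e2]; group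
      have e4 : δ⁻¹ * (δ * (δ * x * δ⁻¹) * δ⁻¹) * δ⁻¹⁻¹ = δ * x * δ⁻¹ := by group
      rw [e3, e4, mul_assoc x, cm _ (cδ _ (cδ x j.1)) _ (cδ x j.1), ← mul_assoc x, e1]; group⟩
  have lq : ∀ a ∈ L1, a ∈ Q → a = 1 := fun a i j => (qn s c.δz c.δd j (a3 a i)).resolve_right fun e => a4 (e ▸ i)
  have RL : L1 ⊓ R = ⊥ := eq_bot_iff.2 fun a i => mem_bot.2 (lq a i.1 ((hP _).1 i.2.1).1)
  have Rz : R ≤ C_[z] := fun x i => l.le ((hP _).1 i.1).1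
  refine ⟨R ⊔ L1, sup_le (fun x i => ⟨(c2.mN x (Rz i)).2 fun v j => ?_, Rz i⟩)
    fun a i => ⟨(c2.mN a (a1 i)).2 (g.sB _ (a2 a i)), a1 i⟩, eq_bot_iff.2 fun x i => mem_bot.2 ?_, ?_⟩
  · rwa [(s.ker x (Rz i)).2 ((hP _).1 i.1).1, h.one]
  · have j : x ∈ ((R ⊔ L1 : Subgroup G) : Set G) := i.1
    rw [coe_mul_of_right_le_normalizer_left R L1 nR] at j
    obtain ⟨b, ib, a, ia, rfl⟩ := j
    have bQ := ((hP _).1 ib.1).1
    have k := c.AY _ i.2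
    dsimp only at k i ⊢
    rw [JE.mul s _ (Rz ib) _ (a1 ia), (s.ker b (Rz ib)).2 bQ, one_mul] at k
    have e := lq a ia ((s.ker a (a1 ia)).1 (mem_bot.1 (g.LY.le ⟨a2 a ia, k⟩)))
    rw [e, mul_one] at i ⊢
    have m := c2.e3.le ⟨i.2, bQ⟩
    exact ((s.md.ker b bQ).1 (AddSubgroup.mem_bot.1 (g.dj.le ⟨m.2, ((hP _).1 ib.1).2⟩))).resolve_right fun r => zR (r ▸ ib)
  · have := H01.card_sup_mul_card_inf' nR
    rw [RL, card_bot, mul_one, a5, cR, sup_comm] at this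
    exact this

end H18.KW
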