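import Mathlib
import Cfsg.Agent.H18.KW

/-!
# Groups of Janko-four type: a complement to `2¹¹` in `N(A) ⊓ C(z)`, part 2 (namespace `H18.KW`)
-/

set_option autoImplicit false
set_option linter.unusedSectionVars false
open Cfsg BG Subgroup H01.XS Cfsg.Agent.H06.J Cfsg.Agent.H23.K
open H01.XT hiding Hy QS

namespace H18.KW
universe u
variable {G : Type u} [Group G] [Finite G] {z : G} {Q : Subgroup G}
  {V : Type u} [AddCommGroup V] [Module (ZMod 2) V] [Finite V] {Γ : Type u} [Group Γ] [Finite Γ]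
  {T : Γ → V →+ V} {d : Γ} {M K Y L : Subgroup Γ} {β : V →+ V →+ ZMod 2} {q : V → ZMod 2} {ν : G → V}
  {f : C_[z] →* Γ} {π : G → Γ} {B B' : AddSubgroup V} {A : Subgroup G} {δ : G}

theorem su2 (s : Bj z Q f π ν T d M β q) (i : δ ∈ C_[z]) (e : π δ = d) (o : δ ^ 3 = 1) {m : Γ} (j : m ∉ M) :
    ∃ x ∈ C_[z], x * δ * x⁻¹ = δ⁻¹ ∧ π x = m := by
  have l := s.md.lx
  obtain ⟨g, k, rfl⟩ := s.sur m
  obtain ⟨ε, hε⟩ : ∃ ε, ε = g * δ⁻¹ * g⁻¹ := ⟨_, rfl⟩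
  have εz : ε ∈ C_[z] := hε ▸ mul_mem (mul_mem k (inv_mem i)) (inv_mem k)
  have ε3 : ε ^ 3 = 1 := by rw [hε, conj_pow, inv_pow, o]; group
  have εd : π ε = d := by
    rw [hε, JE.mul s _ (mul_mem k (inv_mem i)) _ (inv_mem k), JE.mul s _ k _ (inv_mem i), JE.inv s _ k, JE.inv s _ i, e]
    have a1 := s.gm.nM _ j
    have a2 : π g * d * (π g)⁻¹ = d⁻¹ := by
      rw [a1, mul_inv_cancel_right]; exact eq_inv_of_mul_eq_one_right s.gm.d3
    exact (show π g * d⁻¹ * (π g)⁻¹ = (π g * d * (π g)⁻¹)⁻¹ by group).trans (by rw [a2, inv_inv])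
  have c1 : ε * δ⁻¹ ∈ Q := (s.ker _ (mul_mem εz (inv_mem i))).1 (by
    rw [JE.mul s _ εz _ (inv_mem i), JE.inv s _ i, e, εd, mul_inv_cancel])
  obtain ⟨r, rQ, er⟩ := s.md.sur (T d (ν (ε * δ⁻¹)))
  have c2 : δ * r⁻¹ * δ⁻¹ ∈ Q := l.cE i (inv_mem rQ)
  have c3 : ν (r * (δ * r⁻¹ * δ⁻¹)) = ν (ε * δ⁻¹) := by
    rw [s.md.mul _ rQ _ c2, ← s.act δ i _ (inv_mem rQ), s.md.inv rQ, er, e, JE.ω2 s]; exact lc0
  have c4 : r * δ * r⁻¹ = ε := by
    rcases s.md.eq (mul_mem rQ c2) c1 c3 with c | c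
    · exact mul_right_cancel (b := δ⁻¹) (by rw [← c]; group)
    · exfalso
      have c5 : r * δ * r⁻¹ = z * ε := mul_right_cancel (b := δ⁻¹) (by rw [mul_assoc z, ← c]; group)
      have c6 : Commute z ε := (mem_cent1.1 εz).symm
      have c7 := congrArg (· ^ 3) c5
      simp only [conj_pow, c6.mul_pow, o, ε3, mul_one, mul_inv_cancel] at c7
      rw [pow_three, l.zz, mul_one] at c7
      exact l.z1 c7.symm
  refine ⟨r⁻¹ * g, mul_mem (inv_mem (l.le rQ)) k, ?_, by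
    rw [JE.mul s _ (inv_mem (l.le rQ)) _ k, (s.ker _ (inv_mem (l.le rQ))).2 (inv_mem rQ), one_mul]⟩
  rw [show r⁻¹ * g * δ * (r⁻¹ * g)⁻¹ = r⁻¹ * (g * δ⁻¹ * g⁻¹)⁻¹ * r by group, ← hε, ← c4]; group

theorem w : WStmt.{u} := by
  intro G _ _ z Q V _ _ _ Γ _ _ f π ν T d M β q s K Y B A δ c c2 hI L B' g hl
  have h := s.gm
  have l := s.md.lx
  let H : Subgroup G :=
    { carrier := {x | x ∈ C_[z] ∧ π x ∈ L ∧ (x * δ * x⁻¹ = δ ∨ x * δ * x⁻¹ = δ⁻¹)}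
      mul_mem' := fun {x y} i j => ⟨mul_mem i.1 j.1, by rw [JE.mul s _ i.1 _ j.1]; exact mul_mem i.2.1 j.2.1, by
        have e1 : x * y * δ * (x * y)⁻¹ = x * (y * δ * y⁻¹) * x⁻¹ := by group
        have e2 : x * δ⁻¹ * x⁻¹ = (x * δ * x⁻¹)⁻¹ := by group
        rw [e1]
        rcases j.2.2 with r | r <;> rw [r]
        · exact i.2.2
        · rw [e2]; rcases i.2.2 with t | t <;> rw [t]
          exacts [.inr rfl, .inl (inv_inv _)]⟩
      one_mem' := ⟨one_mem _, by rw [(s.ker 1 (one_mem _)).2 (one_mem _)]; exact one_mem _, .inl (by group)⟩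
      inv_mem' := fun {x} i => ⟨inv_mem i.1, by rw [JE.inv s _ i.1]; exact inv_mem i.2.1, by
        rcases i.2.2 with r | r
        · exact .inl (by rw [congrArg (fun t => x⁻¹ * t * x⁻¹⁻¹) r.symm]; group)
        · exact .inr (by
            rw [show x⁻¹ * δ * x⁻¹⁻¹ = (x⁻¹ * δ⁻¹ * x)⁻¹ by group, congrArg (fun t => (x⁻¹ * t * x)⁻¹) r.symm]; group)⟩ }
  have mH : ∀ x, x ∈ H ↔ x ∈ C_[z] ∧ π x ∈ L ∧ (x * δ * x⁻¹ = δ ∨ x * δ * x⁻¹ = δ⁻¹) := fun _ => Iff.rfl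
  have Hz : H ≤ C_[z] := fun x i => i.1
  have zz : z ∈ C_[z] := l.le l.aes.mem
  have πz : π z = 1 := (s.ker z zz).2 l.aes.mem
  have zH : z ∈ H := ⟨zz, πz ▸ one_mem L, .inl (by rw [← mem_cent1.1 c.δz, mul_inv_cancel_right])⟩
  have lift : ∀ m ∈ L, ∃ x ∈ H, π x = m := fun m i => by
    by_cases j : m ∈ M
    · obtain ⟨x, k, rfl⟩ := JE.su s c.δz c.δd c.δ3 m j
      exact ⟨x, ⟨k.1, i, .inl (by rw [mem_cent1.1 k.2, mul_inv_cancel_right])⟩, rfl⟩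
    · obtain ⟨x, k, e, rfl⟩ := su2 s c.δz c.δd c.δ3 j
      exact ⟨x, ⟨k, i, .inr e⟩, rfl⟩
  have cH : Nat.card H = 4320 := by
    have a1 := JE.cnt s Hz
    have a2 : Q ⊓ H = zpowers z := le_antisymm (fun x i => by
      rcases qn s c.δz c.δd i.1 i.2.2.2 with r | r <;> rw [r]
      exacts [one_mem _, mem_zpowers z]) (zpowers_le.2 ⟨l.aes.mem, zH⟩)
    have a3 : (H.subgroupOf C_[z]).map f = L := le_antisymm (by
      rintro _ ⟨x, i, rfl⟩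
      exact (s.pf x).symm ▸ i.2.1) fun m i => by
      obtain ⟨x, j, rfl⟩ := lift m i
      exact ⟨⟨x, j.1⟩, j, s.pf _⟩
    rw [a2, a3, Nat.card_zpowers, orderOf_eq_prime (p := 2) (by rw [pow_two, l.zz]) l.z1, g.cL] at a1
    exact a1.symm
  let ρ : H →* Γ := f.comp (inclusion Hz)
  have hρ : ∀ x : H, ρ x = π x := fun x => s.pf _
  obtain ⟨l0, i0, n0, e0⟩ := g.ou
  obtain ⟨x0, k0, f0, rfl⟩ := su2 s c.δz c.δd c.δ3 n0
  have h0 : x0 ∈ H := ⟨k0, i0, .inr f0⟩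
  have mX : ∀ x, x ∈ (M.comap ρ).map H.subtype ↔ x ∈ H ∧ π x ∈ M := fun x =>
    ⟨by rintro ⟨y, i, rfl⟩; exact ⟨y.2, hρ y ▸ i⟩, fun i => ⟨⟨x, i.1⟩, show ρ _ ∈ M from (hρ ⟨x, i.1⟩).symm ▸ i.2, rfl⟩⟩
  have cX : Nat.card ((M.comap ρ).map H.subtype) = 2160 := by
    haveI := normal_of_index_eq_two h.Mi
    have a1 := (M.comap ρ).card_mul_index
    have a2 : (M.comap ρ).index ∣ 2 := by rw [index_comap, ← h.Mi]; exact relIndex_dvd_index_of_normal _ _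
    have a3 : (M.comap ρ).index ≠ 1 := fun e => n0 (hρ ⟨x0, h0⟩ ▸ (index_eq_one.1 e).ge (mem_top (⟨x0, h0⟩ : H)))
    rw [(Nat.dvd_prime Nat.prime_two).1 a2 |>.resolve_left a3, cH] at a1
    rw [card_map_of_injective H.subtype_injective]; omega
  generalize (M.comap ρ).map H.subtype = X at mX cX
  have XH : X ≤ H := fun x i => ((mX x).1 i).1
  obtain ⟨φ, φs, φk⟩ := c.hk.ph
  let σ : X →* K := (ρ.comp (inclusion XH)).codRestrict K fun x =>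
    g.LK ⟨show ρ _ ∈ L from (hρ ⟨x, XH x.2⟩).symm ▸ (XH x.2).2.1, show ρ _ ∈ M from (hρ ⟨x, XH x.2⟩).symm ▸ ((mX x).1 x.2).2⟩
  have hσ : ∀ x : X, (σ x : Γ) = π x := fun x => hρ ⟨x, XH x.2⟩
  obtain ⟨L1, b1, b2, b3⟩ := hI X H z x0 ((mX z).2 ⟨zH, πz ▸ one_mem M⟩) (φ.comp σ) XH cX cH h0 (fun i => n0 ((mX _).1 i).2)
    (hl x0 k0 ((c2.mN x0 k0).2 (g.sB _ i0)) f0 n0 e0) l.z1 l.zz (fun x i => mem_cent1.1 i.1) (fun a => by
      obtain ⟨k, rfl⟩ := φs a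
      obtain ⟨m, i, y, j, e⟩ := g.cv k k.2
      obtain ⟨x, o, rfl⟩ := lift m i
      have xK : π x ∈ K := (eq_mul_inv_of_mul_eq e.symm) ▸ mul_mem k.2 (inv_mem (c.hk.hx.YK j))
      refine ⟨⟨x, (mX x).2 ⟨o, c.hk.KM xK⟩⟩, ?_⟩
      rw [show k = σ ⟨x, (mX x).2 ⟨o, c.hk.KM xK⟩⟩ * ⟨y, c.hk.hx.YK j⟩ from Subtype.ext (by rw [e, coe_mul, hσ]), map_mul,
        (φk ⟨y, c.hk.hx.YK j⟩).2 ⟨y, j, 0, by simp⟩, mul_one]
      rfl) ((φk _).2 ⟨1, one_mem _, 0, by rw [hσ]; simpa using πz⟩) (fun x e => by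
      have xH := XH x.2
      have xM := ((mX x).1 x.2).2
      obtain ⟨y, j, i, ey⟩ := (φk (σ x * σ x)).1 (by rw [map_mul]; exact e)
      rw [coe_mul, hσ] at ey
      have yL : y ∈ L := by
        rw [eq_mul_inv_of_mul_eq ey.symm]; exact L.mul_mem (L.mul_mem xH.2.1 xH.2.1) (L.inv_mem (L.pow_mem g.dL i))
      have y1 : y = 1 := mem_bot.1 (g.LY.le ⟨yL, j⟩)
      rw [y1, one_mul] at ey
      have w3 : (x : G) * (x * x) ∈ X := mul_mem x.2 (mul_mem x.2 x.2)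
      have wH := XH w3
      have wM := ((mX _).1 w3).2
      have pw : π (x * (x * x)) * π (x * (x * x)) = 1 := by
        rw [JE.mul s _ xH.1 _ (mul_mem xH.1 xH.1), JE.mul s _ xH.1 _ xH.1,
          show π x * (π x * π x) * (π x * (π x * π x)) = (π x * π x) ^ 3 by simp only [pow_succ, pow_zero, one_mul, mul_assoc],
          ey, ← pow_mul, mul_comm, pow_mul, pow_three, h.d3, one_pow]
      have wδ : (x : G) * (x * x) ∈ C_[δ] := by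
        rcases wH.2.2 with r | r
        · exact mem_cent1.2 (mul_inv_eq_iff_eq_mul.1 r)
        · have := congrArg π r
          rw [JE.mul s _ (mul_mem wH.1 c.δz) _ (inv_mem wH.1), JE.mul s _ wH.1 _ c.δz, JE.inv s _ wH.1, JE.inv s _ c.δz, c.δd,
            h.Md _ wM, mul_inv_cancel_right] at this
          exact absurd this (dd s)
      obtain ⟨m, mM, ym⟩ := c.hk.oc _ wM pw
      obtain ⟨κ, o, rfl⟩ := JE.su s c.δz c.δd c.δ3 m mM
      have w' : (x : G) * (x * x) ∈ C_[z] ⊓ C_[δ] := ⟨wH.1, wδ⟩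
      have := JE.sq1 s c.hk.hx c.hk.KM c.δz c.δd c.δ3 (mul_mem (mul_mem o w') (inv_mem o)) (by
        rw [JE.mul s _ (mul_mem o.1 wH.1) _ (inv_mem o.1), JE.mul s _ o.1 _ wH.1, JE.inv s _ o.1]; exact ym)
      refine Subtype.ext ?_
      rw [coe_pow, show (x : G) ^ 6 = κ⁻¹ * (κ * (x * (x * x)) * κ⁻¹ * (κ * (x * (x * x)) * κ⁻¹)) * κ by
        simp only [pow_succ, pow_zero, one_mul, mul_assoc, inv_mul_cancel_left, inv_mul_cancel, mul_one], this]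
      simp)
  exact w2 s c c2 g L1 (b1.trans Hz) (fun a i => (b1 i).2.1) (fun a i => (b1 i).2.2) b2 b3

end H18.KW
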