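import Cfsg.Agent.H18.JE
import Cfsg.Agent.H18.JU2
import Cfsg.Agent.H21.JU1
import Cfsg.Agent.H23.K0

/-! The centraliser in `Q` of a 5-element (for part A of S5572). -/

set_option autoImplicit false
open Cfsg BG Subgroup H01.XS Cfsg.Agent.H06.J Cfsg.Agent.H23.K
open H01.XT hiding Hy QS

namespace H18.S5Q
universe u
variable {G : Type u} [Group G] [Finite G] {z : G} {Q : Subgroup G}
  {V : Type u} [AddCommGroup V] [Module (ZMod 2) V] [Finite V] {Γ : Type u} [Group Γ] [Finite Γ]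
  {T : Γ → V →+ V} {d : Γ} {M K Y : Subgroup Γ} {β : V →+ V →+ ZMod 2} {q : V → ZMod 2} {ν : G → V}
  {f : C_[z] →* Γ} {π : G → Γ} {B : AddSubgroup V} {A : Subgroup G} {δ σ : G}

theorem md (h : Gj T d M β q) {y : Γ} (o : orderOf y = 5) (W : AddSubgroup V) (k : ∀ v ∈ W, T y v ∈ W) :
    Nat.card W ≡ Nat.card ↥(W ⊓ JU.C T y) [MOD 5] := by
  have : Fact (Nat.Prime 5) := ⟨by norm_num⟩
  have p : IsPGroup 5 (zpowers y) := IsPGroup.of_card (n := 1) (by rw [Nat.card_zpowers, o, pow_one])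
  have i : ∀ W : AddSubgroup V, (∀ v ∈ W, T y v ∈ W) → ∀ g ∈ zpowers y, ∀ v ∈ W, T g v ∈ W := fun W k g j => by
    obtain ⟨n, rfl⟩ := mem_powers_iff_mem_zpowers.2 j
    induction n with
    | zero => intro v o; simpa only [pow_zero, h.one] using o
    | succ n ih => intro v o; simp only [pow_succ, h.mul]; exact ih (npow_mem_zpowers y n) _ (k v o)
  let _ : MulAction (zpowers y) W :=
    { smul := fun g v => ⟨T g v, i W k g g.2 v v.2⟩
      one_smul := fun v => Subtype.ext (h.one v)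
      mul_smul := fun x y v => Subtype.ext (h.mul x y v) }
  have a1 := p.card_modEq_card_fixedPoints W
  have fx : ∀ v, T y v = v → ∀ g ∈ zpowers y, T g v = v := fun v e g j => by
    obtain ⟨n, rfl⟩ := mem_powers_iff_mem_zpowers.2 j
    clear j
    induction n with
    | zero => simp only [pow_zero, h.one]
    | succ n ih => simp only [pow_succ, h.mul, e]; exact ih
  have e : Nat.card (MulAction.fixedPoints (zpowers y) W) = Nat.card ↥(W ⊓ JU.C T y) := Nat.card_congr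
    ⟨fun v => ⟨v.1.1, v.1.2, JU.mC.2 (congrArg Subtype.val (v.2 ⟨y, mem_zpowers y⟩))⟩,
      fun v => ⟨⟨v.1, v.2.1⟩, fun g => Subtype.ext (fx v.1 (JU.mC.1 v.2.2) g.1 g.2)⟩, fun _ => rfl, fun _ => rfl⟩
  exact e ▸ a1

theorem tr (h : Gj T d M β q) {y : Γ} (o : orderOf y = 5) (v : V) :
    T y (v + T y v + T y (T y v) + T y (T y (T y v)) + T y (T y (T y (T y v)))) =
      v + T y v + T y (T y v) + T y (T y (T y v)) + T y (T y (T y (T y v))) := by
  have e : T y (T y (T y (T y (T y v)))) = v := by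
    simp only [← h.mul]
    rw [show y * (y * (y * (y * y))) = y ^ 5 by simp only [pow_succ', pow_zero, mul_one], ← o, pow_orderOf_eq_one, h.one]
  simp only [map_add, e]; abel

theorem c16 (s : Bj z Q f π ν T d M β q) (c : Cx s K Y B A δ) (c2 : C2 s Y B A δ) {y : Γ} (o : orderOf y = 5) :
    Nat.card (JU.C T y) = 16 := by
  have h := s.gm
  have p := c.pj
  have p5 : Nat.Prime 5 := by norm_num
  have cK : Nat.card K * 77 * 2 = 2661120 := by
    rw [← c.hk.iK, card_mul_relIndex c.hk.KM, ← h.Mi, M.card_mul_index, h.cΓ]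
  wlog yK : y ∈ K generalizing y
  · obtain ⟨S, sS⟩ := sylow_exists p5 K
    have s2 : IsSylowIn 5 S ⊤ := isSylowIn_mk p5 le_top (sS.pg p5) fun k => by
      have a1 := card_mul_relIndex sS.le
      have a2 := card_mul_relIndex (le_top (a := S))
      have a3 := sS.not_dvd p5
      rw [card_top, h.cΓ] at a2
      obtain ⟨m, e⟩ := k
      have : 5 ∣ Nat.card S := ((Nat.Prime.dvd_mul p5).1 (a1 ▸ (by omega : 5 ∣ Nat.card K))).resolve_right (a3 rfl)
      obtain ⟨n, e'⟩ := this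
      rw [e, e', show 5 * n * (5 * m) = 25 * (n * m) by ring] at a2; omega
    have hF : Fact (Nat.Prime 5) := ⟨p5⟩
    obtain ⟨k, -, lk⟩ := sylow_Jsub p5 s2 (IsPGroup.of_card (n := 1) (show Nat.card (zpowers y) = 5 by
      rw [Nat.card_zpowers, o])) le_top
    have a := this ((MulEquiv.orderOf_eq (MulAut.conj k) y).trans o)
      (sS.le (lk (conj_mem_cj k (mem_zpowers y))))
    exact le_antisymm (a ▸ JU.cle h rfl) (a ▸ JU.cle h (k := k⁻¹) (by rw [MulAut.conj_apply]; group))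
  have cω : ∀ v ∈ JU.C T y, T d v ∈ JU.C T y := fun v j => JU.mC.2 (by rw [JU.cω h (c.hk.KM yK), JU.mC.1 j])
  have nB : ¬ B ≤ JU.C T y := fun l => by
    have := orderOf_dvd_natCard _ (c2.fB y fun v j => JU.mC.1 (l j))
    rw [o, c.hk.hx.cY] at this; omega
  have a1 := md h o B (p.KB y yK)
  have a2 := md h o ⊤ fun _ _ => trivial
  have a3 := JU.four h (W := B ⊓ JU.C T y) fun v j => ⟨p.Bω v j.1, cω v j.2⟩
  have a4 := JU.four h cω
  have a5 : Nat.card ↥(B ⊓ JU.C T y) < 64 := p.cB ▸ lt_of_not_ge fun k =>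
    nB (inf_eq_left.1 (AddSubgroup.eq_of_le_of_card_ge inf_le_left k))
  have a6 := AddSubgroup.card_le_of_le (inf_le_right : B ⊓ JU.C T y ≤ _)
  rw [p.cB] at a1
  rw [top_inf_eq, AddSubgroup.card_top, h.card] at a2
  have a7 : Nat.card (JU.C T y) < 256 := by
    by_contra! k
    have b1 := JU.cnt (AddMonoidHom.id V + T y)
    have b2 := ((AddMonoidHom.id V + T y).comp B.subtype).ker.card_mul_index
    rw [AddSubgroup.index_ker, p.cB] at b2
    have b3 : Nat.card ((AddMonoidHom.id V + T y).comp B.subtype).ker ≤ Nat.card ↥(B ⊓ JU.C T y) :=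
      Nat.card_le_card_of_injective (fun v => ⟨v.1.1, v.1.2, v.2⟩) fun v w e => Subtype.ext (Subtype.ext (congrArg (fun t : ↥(B ⊓ JU.C T y) => t.1) e))
    have b4 : Nat.card ↥(B ⊓ JU.C T y) = 4 := by unfold Nat.ModEq at a1; omega
    rw [h.card] at b1
    have b5 : ((AddMonoidHom.id V + T y).comp B.subtype).range = (AddMonoidHom.id V + T y).range :=
      AddSubgroup.eq_of_le_of_card_ge (by rintro _ ⟨v, rfl⟩; exact ⟨v, rfl⟩) (by nlinarith)
    have b6 : ∀ v, v + T y v ∈ B := fun v => by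
      obtain ⟨u, e⟩ := b5.ge ⟨v, rfl⟩
      exact (show u.1 + T y u.1 = v + T y v from e) ▸ add_mem u.2 (p.KB y yK _ u.2)
    refine nB fun w _ => h.nd (w + T y w) fun v => ?_
    have βB : ∀ u ∈ B, ∀ v ∈ B, β u v = 0 := fun u i v j => by
      have := h.pol u v
      rw [p.qB _ (add_mem i j), p.qB u i, p.qB v j, zero_add, zero_add] at this
      exact this.symm
    have e := tr h o v
    rw [show v = (v + T y v + T y (T y v) + T y (T y (T y v)) + T y (T y (T y (T y v)))) + ((T y v + T y (T y v)) +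
      (T y (T y (T y v)) + T y (T y (T y (T y v))))) from lc0, map_add, βB _ (b6 w) _ (add_mem (b6 _) (b6 _)), add_zero,
      map_add β, AddMonoidHom.add_apply, ← h.inv (h.qT y) w, e]
    exact lc0
  unfold Nat.ModEq at a1 a2
  omega

theorem q32 (s : Bj z Q f π ν T d M β q) (c : Cx s K Y B A δ) (c2 : C2 s Y B A δ) (i : σ ∈ C_[z]) (o : orderOf σ = 5) :
    IsExtraspecial 2 ↥(Q ⊓ C_[σ]) ∧ Nat.card ↥(Q ⊓ C_[σ]) = 32 := by
  have h := s.gm
  have l := s.md.lx
  have : Fact (Nat.Prime 5) := ⟨by norm_num⟩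
  have σ5 : σ ^ 5 = 1 := o ▸ pow_orderOf_eq_one σ
  have oy : orderOf (π σ) = 5 := orderOf_eq_prime (by
    rw [← s.pf ⟨σ, i⟩, ← map_pow, show (⟨σ, i⟩ : C_[z]) ^ 5 = 1 from Subtype.ext σ5, map_one]) fun e => by
    have := orderOf_dvd_natCard _ ((s.ker σ i).1 e)
    rw [o, s.card] at this; omega
  have e : Q ⊓ C_[σ] = s.md.pull (JU.C T (π σ)) := Subgroup.ext fun x => ⟨fun j => ⟨j.1, JU.mC.2 (by
      rw [s.act σ i x j.1, ← mem_cent1.1 j.2, mul_inv_cancel_right])⟩, fun j => ⟨j.1, mem_cent1_comm.1 (by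
      rcases s.md.eq (l.cE i j.1) j.1 ((s.act σ i x j.1).symm.trans (JU.mC.1 j.2)) with r | r
      · exact mem_cent1.2 (mul_inv_eq_iff_eq_mul.1 r)
      · have m : σ * σ ∈ C_[x] := mem_cent1.2 (mul_inv_eq_iff_eq_mul.1 (by
          rw [show σ * σ * x * (σ * σ)⁻¹ = σ * (σ * x * σ⁻¹) * σ⁻¹ by group, r, ← conj_mul, r, mem_cent1.1 i, mul_inv_cancel_right,
            ← mul_assoc, l.zz, one_mul]))
        have := C_[x].pow_mem m 3
        rwa [← pow_two, ← pow_mul, show 2 * 3 = 5 + 1 from rfl, pow_succ, σ5, one_mul] at this)⟩⟩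
  have cc : Nat.card ↥(Q ⊓ C_[σ]) = 32 := by rw [e, s.md.card_pull, c16 s c c2 oy]
  have zQ : z ∈ Q ⊓ C_[σ] := ⟨l.aes.mem, mem_cent1_comm.1 i⟩
  have hc : (Q ⊓ C_[σ]) ⊓ C_(Q ⊓ C_[σ]) ≤ zpowers z := fun x j => by
    have f0 := JU.mC.1 (e.le j.1).2
    have : ν x = 0 := h.nd _ fun v => by
      obtain ⟨r, rQ, er⟩ := s.md.sur (v + T (π σ) v + T (π σ) (T (π σ) v) + T (π σ) (T (π σ) (T (π σ) v)) +
        T (π σ) (T (π σ) (T (π σ) (T (π σ) v))))
      have a1 := (s.b x j.1.1 r rQ).2 (show Commute x r from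
        (mem_cent.1 j.2 r (e.ge ⟨rQ, JU.mC.2 (er ▸ tr h oy v)⟩)).symm)
      have a2 : ∀ u, β (ν x) (T (π σ) u) = β (ν x) u := fun u => by
        conv_lhs => rw [← f0, h.inv (h.qT _)]
      simp only [er, map_add, a2] at a1
      exact lc a1
    rcases (s.md.ker x j.1.1).1 this with r | r <;> rw [r]
    exacts [one_mem _, mem_zpowers z]
  refine ⟨H04.isExtraspecial_of_aes (l.aes.mono inf_le_left zQ) hc fun m => ?_, cc⟩
  have := card_le_of_le (show Q ⊓ C_[σ] ≤ zpowers z from fun x j => hc ⟨j, mem_cent.2 fun y k =>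
    congrArg Subtype.val (m.is_comm.comm (⟨y, k⟩ : ↥(Q ⊓ C_[σ])) ⟨x, j⟩)⟩)
  rw [cc, Nat.card_zpowers, l.aes.ord] at this; omega

end H18.S5Q
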